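/-
Number theory for Amitsur's theorem on non-solvable finite subgroups of division rings: `-1` is a sum of three
squares in `ℚ(√5, ξ)`, `ξ` a root of unity of prime order `p ≥ 7` (Gauss's identity for the cyclotomic polynomial,
Thue's lemma and Dirichlet's theorem).
-/
import Cfsg.Agent.Base

set_option autoImplicit false

namespace CL.Amit

open Polynomial Finset

theorem gauss_aux (l : ℕ) [hl : Fact l.Prime] (h4 : l % 4 = 3) (L : Type) [Field L] [Algebra ℚ L]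
    [IsCyclotomicExtension {l} ℚ L] :
    ∃ U V : ℚ[X], (X - 1) * (U ^ 2 + C (l : ℚ) * V ^ 2) = 4 * (X ^ l - 1) := by
  classical
  have : CharZero L := algebraRat.charZero L
  have hG : IsGalois ℚ L := IsCyclotomicExtension.isGalois {l} ℚ L
  have hF : FiniteDimensional ℚ L := IsCyclotomicExtension.finiteDimensional {l} ℚ L
  have hζ := IsCyclotomicExtension.zeta_spec l ℚ L
  set ζ := IsCyclotomicExtension.zeta l ℚ L
  let ψ : AddChar (ZMod l) L := AddChar.zmodChar l hζ.pow_eq_one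
  have hψ : ψ.IsPrimitive := AddChar.zmodChar_primitive_of_primitive_root l hζ
  let χ := quadraticChar (ZMod l)
  have hr : ringChar (ZMod l) ≠ 2 := by rw [ZMod.ringChar_zmod_n]; omega
  let F : ℤ → L[X] := fun ε => ∏ a ∈ univ.filter (fun a => χ a = ε), (X - C (ψ a))
  have h1 : (X - 1) * (F 1 * F (-1)) = X ^ l - 1 := by
    have e1 : (X ^ l - 1 : L[X]) = ∏ a : ZMod l, (X - C (ψ a)) := by
      rw [← C_1, X_pow_sub_C_eq_prod hζ hl.out.pos (one_pow l)]
      refine prod_nbij' (fun i => (i : ZMod l)) (fun a => a.val) (by simp) (fun a _ => mem_range.2 (ZMod.val_lt a))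
        (fun i hi => ZMod.val_cast_of_lt (mem_range.1 hi)) (fun a _ => ZMod.natCast_zmod_val a) fun i _ => ?_
      rw [mul_one, AddChar.zmodChar_apply']
    have e0 : F 0 = X - 1 := by
      have : univ.filter (fun a => χ a = 0) = {0} := by
        ext a; simp only [χ, mem_filter, mem_univ, true_and, quadraticChar_eq_zero_iff, mem_singleton]
      simp only [F, this, prod_singleton, AddChar.map_zero_eq_one, C_1]
    rw [e1, ← prod_fiberwise_of_maps_to (s := univ) (t := ({0, 1, -1} : Finset ℤ)) (g := fun a => χ a)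
      (fun a _ => by rcases quadraticChar_isQuadratic (ZMod l) a with h | h | h <;> simp [χ, h]),
      prod_insert (by decide), prod_insert (by decide), prod_singleton, ← e0]
  let χ' := χ.ringHomComp (Int.castRingHom L)
  have hχ' : χ' ≠ 1 := (MulChar.ringHomComp_ne_one_iff Int.cast_injective).2 (quadraticChar_ne_one hr)
  let g := gaussSum χ' ψ
  have hg : g ^ 2 = -(l : L) := by
    rw [gaussSum_sq hχ' ((quadraticChar_isQuadratic _).comp _) hψ, ZMod.card, MulChar.ringHomComp_apply,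
      quadraticChar_neg_one hr, ZMod.card, ZMod.χ₄_nat_three_mod_four h4]
    simp
  have hl0 : (l : L) ≠ 0 := Nat.cast_ne_zero.2 hl.out.ne_zero
  have hg0 : g ≠ 0 := fun h => by rw [h] at hg; exact hl0 (by simpa using hg.symm)
  have key : ∀ σ : L ≃ₐ[ℚ] L, ∃ ε : ℤ, (ε = 1 ∨ ε = -1) ∧ (∀ δ, (F δ).map (σ : L →+* L) = F (ε * δ)) ∧
      σ g = ε * g := by
    intro σ
    obtain ⟨i, hi, hσ⟩ := hζ.eq_pow_of_pow_eq_one (ξ := σ ζ) (by rw [← map_pow, hζ.pow_eq_one, map_one])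
    have hc : (i : ZMod l) ≠ 0 := fun h => by
      have : i = 0 := Nat.eq_zero_of_dvd_of_lt ((ZMod.natCast_eq_zero_iff _ _).1 h) hi
      rw [this, pow_zero] at hσ
      exact hζ.ne_one hl.out.one_lt (σ.injective (by rw [← hσ, map_one]))
    have hσψ : ∀ a, σ (ψ a) = ψ (i * a) := fun a => by
      rw [AddChar.zmodChar_apply, map_pow, ← hσ, ← pow_mul, ← AddChar.zmodChar_apply' hζ.pow_eq_one,
        Nat.cast_mul, ZMod.natCast_zmod_val]
    have hε := quadraticChar_dichotomy hc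
    have hsq : χ i * χ i = 1 := by rcases hε with h | h <;> simp [χ, h]
    refine ⟨χ i, hε, fun δ => ?_, ?_⟩
    · simp only [F, Polynomial.map_prod, Polynomial.map_sub, map_X, map_C, RingHom.coe_coe, hσψ]
      refine prod_nbij' (fun a => i * a) (fun a => (i : ZMod l)⁻¹ * a) (fun a ha => ?_) (fun a ha => ?_)
        (fun a _ => inv_mul_cancel_left₀ hc a) (fun a _ => mul_inv_cancel_left₀ hc a) fun a _ => rfl
      · rw [mem_filter] at ha ⊢
        exact ⟨mem_univ _, by rw [map_mul, ha.2]⟩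
      · rw [mem_filter] at ha ⊢
        refine ⟨mem_univ _, ?_⟩
        have h2 : χ i * χ ((i : ZMod l)⁻¹ * a) = χ i * δ := by rw [← map_mul, mul_inv_cancel_left₀ hc, ha.2]
        rw [← one_mul (χ _), ← hsq, mul_assoc, h2, ← mul_assoc, hsq, one_mul]
    · have e1 : σ g = gaussSum χ' (ψ.mulShift (Units.mk0 _ hc : (ZMod l)ˣ)) := by
        simp only [g, gaussSum, map_sum, map_mul, hσψ, χ', MulChar.ringHomComp_apply, eq_intCast, map_intCast,
          AddChar.mulShift_apply, Units.val_mk0]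
      have e2 := gaussSum_mulShift χ' ψ (Units.mk0 _ hc)
      rw [← e1] at e2
      have e3 : χ' (Units.mk0 _ hc : (ZMod l)ˣ) = (χ i : L) := by simp [χ']
      rw [e3] at e2
      have e4 : ((χ i : ℤ) : L) * (χ i : ℤ) = 1 := by rw [← Int.cast_mul, hsq, Int.cast_one]
      rw [← one_mul (σ g), ← e4, mul_assoc, e2]
  have lift : ∀ P : L[X], (∀ σ : L ≃ₐ[ℚ] L, P.map (σ : L →+* L) = P) → ∃ Q : ℚ[X], Q.map (algebraMap ℚ L) = P :=
    fun P hP => (mem_lifts P).1 ((lifts_iff_coeff_lifts P).2 fun n =>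
      (IsGalois.mem_range_algebraMap_iff_fixed _).2 fun σ => by
        conv_rhs => rw [← hP σ, coeff_map]
        rfl)
  obtain ⟨U, hU⟩ := lift (F 1 + F (-1)) fun σ => by
    obtain ⟨ε, rfl | rfl, h2, -⟩ := key σ <;> simp [h2, add_comm]
  obtain ⟨V, hV⟩ := lift (C g⁻¹ * (F 1 - F (-1))) fun σ => by
    obtain ⟨ε, rfl | rfl, h2, h3⟩ := key σ
    · simp [h2, h3]
    · simp only [Polynomial.map_mul, Polynomial.map_sub, map_C, h2, RingHom.coe_coe, map_inv₀, h3]
      simp only [Int.cast_neg, Int.cast_one, neg_mul, one_mul, inv_neg, map_neg, mul_one, neg_neg]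
      ring
  refine ⟨U, V, map_injective (algebraMap ℚ L) (algebraMap ℚ L).injective ?_⟩
  simp only [Polynomial.map_mul, Polynomial.map_sub, Polynomial.map_add, Polynomial.map_pow, map_X,
    Polynomial.map_one, hU, hV, Polynomial.map_ofNat, map_natCast]
  have e : (l : L[X]) * C g⁻¹ ^ 2 = -1 := by
    rw [← C_pow, ← map_natCast C, ← C_mul, ← C_1, ← C_neg, inv_pow, hg]
    congr 1
    field_simp
  rw [← h1]
  simp only [Polynomial.map_natCast]
  linear_combination (X - 1) * (F 1 - F (-1)) ^ 2 * e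

/-- Gauss: `4 Φ_l = U² + l V²` for a prime `l ≡ 3 (mod 4)`. -/
theorem gauss_identity (l : ℕ) [hl : Fact l.Prime] (h4 : l % 4 = 3) :
    ∃ U V : ℚ[X], (X - 1) * (U ^ 2 + C (l : ℚ) * V ^ 2) = 4 * (X ^ l - 1) :=
  have : NeZero (l : ℚ) := ⟨Nat.cast_ne_zero.2 hl.out.ne_zero⟩
  @gauss_aux l _ h4 (CyclotomicField l ℚ) _ _ (CyclotomicField.isCyclotomicExtension l ℚ)

/-- Thue's lemma for the form `x² + 5 y²`. -/
theorem thue (l : ℕ) [hl : Fact l.Prime] (r : ZMod l) (hr : r * r = -5) :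
    ∃ (a b : ℤ) (k : ℕ), 0 < k ∧ k < 6 ∧ a ^ 2 + 5 * b ^ 2 = k * l := by
  classical
  have : NeZero l := ⟨hl.out.ne_zero⟩
  set m := Nat.sqrt l
  have hm : m * m < l := lt_of_le_of_ne (Nat.sqrt_le l) fun h => hl.out.not_isSquare ⟨m, h.symm⟩
  have hm' : l < (m + 1) * (m + 1) := Nat.lt_succ_sqrt l
  obtain ⟨x, y, hne, e⟩ := Fintype.exists_ne_map_eq_of_card_lt
    (fun x : Fin (m + 1) × Fin (m + 1) => ((x.1 : ℕ) : ZMod l) - r * (x.2 : ℕ)) (by simpa using hm')
  obtain ⟨a, ha⟩ : ∃ a : ℤ, a = (x.1 : ℕ) - (y.1 : ℕ) := ⟨_, rfl⟩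
  obtain ⟨b, hb⟩ : ∃ b : ℤ, b = (x.2 : ℕ) - (y.2 : ℕ) := ⟨_, rfl⟩
  have hab : (a : ZMod l) = r * b := by rw [ha, hb]; push_cast; linear_combination e
  have hd : (l : ℤ) ∣ a ^ 2 + 5 * b ^ 2 := (ZMod.intCast_zmod_eq_zero_iff_dvd _ _).1 (by
    push_cast; rw [hab]; linear_combination (b : ZMod l) ^ 2 * hr)
  have b1 := x.1.2
  have b2 := y.1.2
  have b3 := x.2.2
  have b4 := y.2.2
  have ha2 : a ^ 2 ≤ (m : ℤ) ^ 2 := sq_le_sq' (by omega) (by omega)
  have hb2 : b ^ 2 ≤ (m : ℤ) ^ 2 := sq_le_sq' (by omega) (by omega)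
  have hpos : 0 < a ^ 2 + 5 * b ^ 2 := by
    by_contra h
    have h1 : a = 0 := by nlinarith [sq_nonneg a, sq_nonneg b]
    have h2 : b = 0 := by nlinarith [sq_nonneg a, sq_nonneg b]
    exact hne (Prod.ext (Fin.ext (by omega)) (Fin.ext (by omega)))
  obtain ⟨k, hk⟩ := hd
  have hl0 : (0 : ℤ) < l := by exact_mod_cast hl.out.pos
  have hm2 : (m : ℤ) ^ 2 < l := by rw [sq]; exact_mod_cast hm
  have k0 : 0 < k := by nlinarith
  have k6 : k < 6 := by nlinarith
  refine ⟨a, b, k.toNat, by omega, by omega, ?_⟩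
  rw [hk, Int.toNat_of_nonneg k0.le, mul_comm]

theorem exists_sq_neg_five (l : ℕ) [hl : Fact l.Prime] (h : l % 20 = 3) : ∃ r : ZMod l, r * r = -5 := by
  have h3 : ¬ IsSquare ((3 : ℕ) : ZMod 5) := by rintro ⟨r, hr⟩; revert r; decide
  have h5 : Fact (Nat.Prime 5) := ⟨by norm_num⟩
  have hr : ringChar (ZMod l) ≠ 2 := by rw [ZMod.ringChar_zmod_n]; omega
  have n5 : (5 : ZMod l) ≠ 0 := fun e => by
    have : l ∣ 5 := (ZMod.natCast_eq_zero_iff 5 l).1 (by exact_mod_cast e)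
    have := Nat.le_of_dvd (by norm_num) this
    interval_cases l <;> omega
  have e1 : ¬ IsSquare (5 : ZMod l) := fun hs => by
    have := (ZMod.exists_sq_eq_prime_iff_of_mod_four_eq_one (p := 5) (q := l) (by norm_num) (by omega)).2
      (by exact_mod_cast hs)
    rw [← ZMod.natCast_mod, show l % 5 = 3 by omega] at this
    exact h3 this
  have e2 : ¬ IsSquare (-1 : ZMod l) := fun hs => ZMod.exists_sq_eq_neg_one_iff.1 hs (by omega)
  classical
  have e3 : quadraticChar (ZMod l) (-5) = 1 := by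
    rw [← neg_one_mul, map_mul, quadraticChar_neg_one_iff_not_isSquare.2 e1,
      quadraticChar_neg_one_iff_not_isSquare.2 e2]
    norm_num
  obtain ⟨r, h⟩ := (quadraticChar_one_iff_isSquare (neg_ne_zero.2 n5)).1 e3
  exact ⟨r, h.symm⟩

/-- `-1` is a sum of three squares in `ℚ(√5, ξ)`. -/
theorem exists_three_sq {S : Type*} [CommRing S] [IsDomain S] [Algebra ℚ S] {t ξ : S} (ht : t * t = t + 1) {p : ℕ}
    (hp : p.Prime) (h30 : p.Coprime 30) (hξ : ξ ^ p = 1) (hξ1 : ξ ≠ 1) :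
    ∃ B C E : S, 1 + B * B + C * C + E * E = 0 := by
  have hp20 : Nat.Coprime 20 p := by
    have h2 : p.Coprime 2 := h30.coprime_dvd_right (by norm_num)
    have h5 : p.Coprime 5 := h30.coprime_dvd_right (by norm_num)
    exact ((h2.mul_right h2).mul_right h5).symm
  obtain ⟨a, a1, a2⟩ := Nat.chineseRemainder hp20 3 (p - 1)
  have hco : a.Coprime (20 * p) := by
    refine Nat.Coprime.mul_right ?_ ?_
    · rw [Nat.Coprime, Nat.ModEq.gcd_eq a1]; norm_num
    · rw [Nat.Coprime, Nat.ModEq.gcd_eq a2]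
      exact (Nat.coprime_self_sub_left hp.pos).2 (Nat.coprime_one_left p)
  obtain ⟨l, -, hl, hla⟩ := Nat.forall_exists_prime_gt_and_modEq 0 (mul_ne_zero (by norm_num) hp.ne_zero) hco
  have : Fact l.Prime := ⟨hl⟩
  have l20 : l % 20 = 3 := (hla.of_mul_right p).trans a1
  have lp : l ≡ p - 1 [MOD p] := (hla.of_mul_left 20).trans a2
  obtain ⟨U, V, hUV⟩ := gauss_identity l (by omega)
  obtain ⟨r, hr⟩ := exists_sq_neg_five l l20
  obtain ⟨x, y, k, k0, k6, hk⟩ := thue l r hr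
  have hξl : ξ * ξ ^ l = 1 := by
    rw [pow_eq_pow_mod l hξ, lp, ← pow_eq_pow_mod _ hξ, ← pow_succ', Nat.sub_add_cancel hp.pos, hξ]
  obtain ⟨u, hu⟩ : ∃ u, u = aeval ξ U := ⟨_, rfl⟩
  obtain ⟨v, hv⟩ : ∃ v, v = aeval ξ V := ⟨_, rfl⟩
  have e1 : (ξ - 1) * (u ^ 2 + l * v ^ 2) = 4 * (ξ ^ l - 1) := by
    have := congrArg (aeval ξ) hUV
    simpa [hu, hv, map_ofNat] using this
  have e2 : ξ * (u ^ 2 + l * v ^ 2) = -4 :=
    mul_left_cancel₀ (sub_ne_zero.2 hξ1) (by linear_combination ξ * e1 + 4 * hξl)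
  obtain ⟨η, hη⟩ : ∃ η, η * η = ξ := by
    obtain ⟨j, hj⟩ := hp.odd_of_ne_two (by rintro rfl; revert h30; decide)
    exact ⟨ξ ^ (j + 1), by rw [← pow_add, show j + 1 + (j + 1) = p + 1 by omega, pow_succ, hξ, one_mul]⟩
  obtain ⟨c, d, hcd⟩ : ∃ c d : S, c * c + d * d = k := by
    interval_cases k
    · exact ⟨1, 0, by norm_num⟩
    · exact ⟨1, 1, by norm_num⟩
    · exact ⟨t, 1 - t, by push_cast; linear_combination 2 * ht⟩
    · exact ⟨2, 0, by norm_num⟩
    · exact ⟨2, 1, by norm_num⟩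
  have hk' : (x : S) ^ 2 + 5 * (y : S) ^ 2 = k * l := by exact_mod_cast congrArg (Int.cast : ℤ → S) hk
  obtain ⟨w, hw⟩ : ∃ w : S, w * k = 1 :=
    ⟨algebraMap ℚ S (k : ℚ)⁻¹, by
      rw [← map_natCast (algebraMap ℚ S), ← map_mul, inv_mul_cancel₀ (by exact_mod_cast k0.ne'), map_one]⟩
  obtain ⟨h, hh⟩ : ∃ h : S, h * 2 = 1 :=
    ⟨algebraMap ℚ S 2⁻¹, by rw [← map_ofNat (algebraMap ℚ S), ← map_mul]; norm_num⟩
  obtain ⟨s, hs⟩ : ∃ s : S, s * s = 5 := ⟨2 * t - 1, by linear_combination 4 * ht⟩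
  obtain ⟨c', d', hl2⟩ : ∃ c' d' : S, c' * c' + d' * d' = l := by
    refine ⟨w * (c * x - d * (s * y)), w * (c * (s * y) + d * x), ?_⟩
    have : (c * c + d * d) * ((x : S) ^ 2 + s * s * y ^ 2) = k * (k * l) := by rw [hcd, hs, hk']
    linear_combination w ^ 2 * this + (w * k + 1) * l * hw
  refine ⟨h * η * u, h * η * v * c', h * η * v * d', ?_⟩
  have e3 : η * η * (u ^ 2 + (c' * c' + d' * d') * v ^ 2) = -4 := by rw [hη, hl2, e2]
  linear_combination h ^ 2 * e3 - (2 * h + 1) * hh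

end CL.Amit
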