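/-
Amitsur's theorem: a non-solvable finite subgroup of the multiplicative group of a division ring is `SL(2,5)`.
The groups `SL(2,5) × C_p` and `2.S₅` produce explicit zero divisors.
-/
import Cfsg.Agent.Fgs.Amitsur1
import Cfsg.Agent.Perm.FCZass2

set_option autoImplicit false
set_option linter.unusedSimpArgs false

namespace CL.Amit

open Subgroup

section Ring

variable {D : Type*} [DivisionRing D] [CharZero D]

theorem no_three_sq {i j B C E : D} (hi : i * i = -1) (hj : j * j = -1) (hij : j * i = -(i * j))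
    (iB : Commute i B) (iC : Commute i C) (iE : Commute i E) (jB : Commute j B) (jC : Commute j C) (jE : Commute j E)
    (CB : Commute C B) (EB : Commute E B) (EC : Commute E C) (h : 1 + B * B + C * C + E * E = 0) : False := by
  have hi' : ∀ x, i * (i * x) = -x := fun x => by rw [← mul_assoc, hi, neg_one_mul]
  have hj' : ∀ x, j * (j * x) = -x := fun x => by rw [← mul_assoc, hj, neg_one_mul]
  have hij' : ∀ x, j * (i * x) = -(i * (j * x)) := fun x => by rw [← mul_assoc, hij, neg_mul, mul_assoc]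
  obtain ⟨P, hP⟩ : ∃ P, P = B * i + C * j + E * (i * j) := ⟨_, rfl⟩
  have h1 : P * P = 1 - (1 + B * B + C * C + E * E) := by
    simp only [hP, mul_add, add_mul, mul_assoc, iB.eq, iC.eq, iE.eq, jB.eq, jC.eq, jE.eq, CB.eq, EB.eq, EC.eq,
      iB.left_comm, iC.left_comm, iE.left_comm, jB.left_comm, jC.left_comm, jE.left_comm, CB.left_comm,
      EB.left_comm, EC.left_comm, hi, hj, hij, hi', hj', hij', mul_neg, neg_neg, mul_one]
    abel
  have h2 : P - i * P * i - j * P * j - i * j * P * (i * j) = 0 := by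
    simp only [hP, mul_add, add_mul, mul_assoc, iB.left_comm, iC.left_comm, iE.left_comm, jB.left_comm,
      jC.left_comm, jE.left_comm, hi, hj, hij, hi', hj', hij', mul_neg, neg_mul, neg_neg, mul_one]
    abel
  rw [h, sub_zero, mul_self_eq_one_iff] at h1
  rcases h1 with h1 | h1 <;> rw [h1] at h2 <;>
    simp only [mul_one, mul_neg, neg_mul, mul_assoc, one_mul, hi, hj, hij', hi', neg_neg] at h2 <;> norm_num at h2

theorem no_sl25_mul {α β ξ : D} (ha : α * α = -1) (hb3 : β ^ 3 = -1) (hb1 : β ≠ -1) (h5 : (α * β) ^ 5 = -1)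
    (h1 : α * β ≠ -1) (ca : Commute ξ α) (cb : Commute ξ β) {p : ℕ} (hp : p.Prime) (h30 : p.Coprime 30)
    (hξ : ξ ^ p = 1) (hξ1 : ξ ≠ 1) : False := by
  have hb : β * β = β - 1 := by
    have : (β + 1) * (β * β - (β - 1)) = 0 := by rw [← add_eq_zero_iff_eq_neg] at hb3; rw [← hb3]; noncomm_ring
    exact sub_eq_zero.1 ((mul_eq_zero.1 this).resolve_left (by rwa [add_eq_zero_iff_eq_neg]))
  have ha' : ∀ x, α * (α * x) = -x := fun x => by rw [← mul_assoc, ha, neg_one_mul]
  have hb' : ∀ x, β * (β * x) = β * x - x := fun x => by rw [← mul_assoc, hb, sub_mul, one_mul]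
  obtain ⟨t, ht⟩ : ∃ t, t = α * β + β * α - α := ⟨_, rfl⟩
  obtain ⟨w, hw⟩ : ∃ w, w = α * β - β * α := ⟨_, rfl⟩
  have ta : Commute t α := by
    simp only [Commute, SemiconjBy, ht, mul_add, add_mul, mul_sub, sub_mul, mul_assoc, ha, ha', mul_neg, mul_one]
    abel
  have tb : Commute t β := by
    simp only [Commute, SemiconjBy, ht, mul_add, add_mul, mul_sub, sub_mul, mul_assoc, hb, hb', mul_one]
    abel
  have tξ : Commute t ξ := ht ▸ (((ca.mul_right cb).add_right (cb.mul_right ca)).sub_right ca).symm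
  have tw : Commute t w := hw ▸ (ta.mul_right tb).sub_right (tb.mul_right ta)
  have wa : w * α = -(α * w) := by
    simp only [hw, mul_sub, sub_mul, mul_assoc, ha, ha', mul_neg, mul_one]
    abel
  have ww : w * w = t * t - 1 - 1 - 1 := by
    simp only [hw, ht, mul_add, add_mul, mul_sub, sub_mul, mul_assoc, ha, ha', hb, hb', mul_neg, mul_one]
    abel
  have tt : t * t = t + 1 := by
    obtain ⟨y, hy⟩ : ∃ y, y = α * β := ⟨_, rfl⟩
    have yt : y * t = y * y + 1 := by
      simp only [hy, ht, mul_add, mul_sub, sub_mul, mul_assoc, ha, hb']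
      abel
    have ty : t * y = y * y + 1 := by rw [← yt, hy, (ta.mul_right tb).eq]
    rw [← hy] at h5 h1
    have y0 : y ≠ 0 := fun e => by rw [e] at h5; norm_num at h5
    have e1 : (y + 1) * (y * (y * (t * t - (t + 1)))) = 0 := by
      have : y * (y * (t * t - (t + 1))) = y * (y * t) * t - y * (y * t) - y * y := by noncomm_ring
      rw [this, yt, show y * (y * y + 1) * t = y * (y * (y * t)) + y * t by noncomm_ring, yt,
        ← add_eq_zero_iff_eq_neg.2 h5]
      noncomm_ring
    simpa [y0, add_eq_zero_iff_eq_neg, h1, sub_eq_zero] using e1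
  let A := Subalgebra.centralizer ℚ ({t, ξ} : Set D)
  have mA : ∀ x, Commute t x → Commute ξ x → x ∈ A := fun x h1 h2 => by
    rintro _ (rfl | rfl)
    exacts [h1, h2]
  let S := Subalgebra.center ℚ A
  obtain ⟨B, C, E, h⟩ := exists_three_sq (S := S)
    (t := ⟨⟨t, mA t (Commute.refl t) tξ.symm⟩, Subalgebra.mem_center_iff.2 fun g => Subtype.ext (g.2 t (by simp)).symm⟩)
    (ξ := ⟨⟨ξ, mA ξ tξ (Commute.refl ξ)⟩, Subalgebra.mem_center_iff.2 fun g => Subtype.ext (g.2 ξ (by simp)).symm⟩)
    (Subtype.ext (Subtype.ext tt)) hp h30 (Subtype.ext (Subtype.ext hξ))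
    fun e => hξ1 (congrArg (fun x : S => ((x : A) : D)) e)
  have k : ∀ (x : A) (y : S), Commute (x : D) ((y : A) : D) := fun x y =>
    congrArg Subtype.val (Subalgebra.mem_center_iff.1 y.2 x)
  have mi := mA α ta ca
  have mj := mA (t * w) ((Commute.refl t).mul_right tw)
    (tξ.symm.mul_right (hw ▸ (ca.mul_right cb).sub_right (cb.mul_right ca)))
  refine no_three_sq (j := t * w) ha ?_ ?_ (k ⟨_, mi⟩ B) (k ⟨_, mi⟩ C) (k ⟨_, mi⟩ E) (k ⟨_, mj⟩ B) (k ⟨_, mj⟩ C)
    (k ⟨_, mj⟩ E) (k _ B) (k _ B) (k _ C) (congrArg (fun x : S => ((x : A) : D)) h)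
  · rw [mul_assoc, ← mul_assoc w, ← tw.eq, mul_assoc, ← mul_assoc, ww, tt]
    rw [show (t + 1) * (t + 1 - 1 - 1 - 1) = t * t - (t + 1) - 1 by noncomm_ring, tt, sub_self, zero_sub]
  · rw [mul_assoc, wa, mul_neg, ← mul_assoc, ta.eq, mul_assoc]

theorem no_cliff {a b c d : D} (ha : a * a = -1) (hb : b * b = -1) (hc : c * c = -2) (hd : d * d = -10)
    (ab : b * a = -(a * b)) (ac : c * a = -(a * c)) (ad : d * a = -(a * d)) (bc : c * b = -(b * c))
    (bd : d * b = -(b * d)) (cd : d * c = -(c * d)) : False := by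
  have k : ∀ {x y : D}, y * x = -(x * y) → ∀ z, y * (x * z) = -(x * (y * z)) := fun h z => by
    rw [← mul_assoc, h, neg_mul, mul_assoc]
  have ha' : ∀ x, a * (a * x) = -x := fun x => by rw [← mul_assoc, ha, neg_one_mul]
  have hb' : ∀ x, b * (b * x) = -x := fun x => by rw [← mul_assoc, hb, neg_one_mul]
  have hc' : ∀ x, c * (c * x) = -((2 : ℕ) • x) := fun x => by rw [← mul_assoc, hc]; simp
  have hd2 : d * d = -((10 : ℕ) • 1) := by rw [hd]; simp
  have hc2 : c * c = -((2 : ℕ) • 1) := by rw [hc]; simp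
  obtain ⟨q, hq⟩ : ∃ q, q = (3 : ℕ) • (a * (b * c)) + c * d := ⟨_, rfl⟩
  have h1 : (a + b - q) * (a + b + q) = 0 := by
    simp only [hq, mul_add, add_mul, sub_mul, mul_assoc, ha, hb, hc2, hd2, ha', hb', hc', ab, ac, ad, bc, bd, cd,
      k ab, k ac, k ad, k bc, k bd, k cd, mul_neg, neg_neg, mul_one, smul_mul_assoc, mul_smul_comm, smul_neg]
    abel
  have h2 : (a - b) * q = q * (a - b) := by
    simp only [hq, mul_add, add_mul, sub_mul, mul_sub, mul_assoc, hb, ha', hb', ab, ac, ad, bc, bd,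
      k ab, k ac, k bc, mul_neg, neg_neg, smul_mul_assoc, mul_smul_comm, smul_neg, smul_sub]
    abel
  have h3 : (a - b) * (a + b) - (a + b) * (a - b) = 4 * (a * b) := by
    simp only [mul_add, add_mul, sub_mul, mul_sub, ha, hb, ab]
    noncomm_ring
  have h4 : (a - b) * (a + b) = (a + b) * (a - b) := by
    rcases mul_eq_zero.1 h1 with h | h
    · rw [sub_eq_zero.1 h, h2]
    · rw [add_eq_zero_iff_eq_neg.1 h, mul_neg, h2, neg_mul]
  rw [h4, sub_self, eq_comm, mul_eq_zero, mul_eq_zero] at h3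
  rcases h3 with h | h | h
  · norm_num at h
  · rw [h] at ha; norm_num at ha
  · rw [h] at hb; norm_num at hb

theorem no_cox {a b c d : D} (ha : a * a = -1) (hb : b * b = -1) (hc : c * c = -1) (hd : d * d = -1)
    (ab : b * a = 1 - a * b) (ac : c * a = -(a * c)) (ad : d * a = -(a * d)) (bc : c * b = 1 - b * c)
    (bd : d * b = -(b * d)) (cd : d * c = 1 - c * d) : False := by
  refine no_cliff (c := a + (2 : ℕ) • b + c) (d := a + (2 : ℕ) • b + (3 : ℕ) • c + (4 : ℕ) • d) ha hc ?_ ?_ ac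
    ?_ ?_ ?_ ?_ ?_ <;>
    simp only [mul_add, add_mul, smul_mul_assoc, mul_smul_comm, ha, hb, hc, hd, ab, ac, ad, bc, bd, cd] <;>
    noncomm_ring <;> simp

theorem no_cox' {a b c d : D} (ha : a * a = -1) (hb : b * b = -1) (hc : c * c = -1) (hd : d * d = -1)
    (ab : b * a + a * b = 1 ∨ b * a + a * b = -1) (ac : c * a = -(a * c)) (ad : d * a = -(a * d))
    (bc : c * b + b * c = 1 ∨ c * b + b * c = -1) (bd : d * b = -(b * d))
    (cd : d * c + c * d = 1 ∨ d * c + c * d = -1) : False := by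
  wlog h1 : b * a + a * b = 1 generalizing a
  · exact this (a := -a) (by simpa using ha) (Or.inl (by rw [mul_neg, neg_mul, ← neg_add, ab.resolve_left h1, neg_neg]))
      (by simp [ac]) (by simp [ad]) (by rw [mul_neg, neg_mul, ← neg_add, ab.resolve_left h1, neg_neg])
  wlog h2 : c * b + b * c = 1 generalizing c
  · exact this (c := -c) (by simpa using hc)
      (Or.inl (by rw [mul_neg, neg_mul, ← neg_add, bc.resolve_left h2, neg_neg]))
      (by rw [mul_neg, neg_mul, ← neg_add, neg_eq_iff_eq_neg, neg_inj]; exact cd.symm) (by simp [ac])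
      (by rw [mul_neg, neg_mul, ← neg_add, bc.resolve_left h2, neg_neg])
  wlog h3 : d * c + c * d = 1 generalizing d
  · exact this (d := -d) (by simpa using hd) (by simp [bd]) (by simp [ad])
      (Or.inl (by rw [mul_neg, neg_mul, ← neg_add, cd.resolve_left h3, neg_neg]))
      (by rw [mul_neg, neg_mul, ← neg_add, cd.resolve_left h3, neg_neg])
  exact no_cox ha hb hc hd (eq_sub_of_add_eq h1) ac ad (eq_sub_of_add_eq h2) bd (eq_sub_of_add_eq h3)

omit [CharZero D] in
theorem add_inv_of_cube {x y : D} (hx : x * x = -1) (hy : y * y = -1) (h : ((x * y) ^ 3) ^ 2 = 1)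
    (h1 : x * y ≠ 1) (h2 : x * y ≠ -1) : y * x + x * y = 1 ∨ y * x + x * y = -1 := by
  obtain ⟨u, hu⟩ : ∃ u, u = x * y := ⟨_, rfl⟩
  have e : u * (y * x) = 1 := by rw [hu, mul_assoc, ← mul_assoc y, hy, neg_one_mul, mul_neg, hx, neg_neg]
  have u0 : u ≠ 0 := left_ne_zero_of_mul_eq_one e
  rw [← hu] at h h1 h2 ⊢
  rw [sq, mul_self_eq_one_iff] at h
  rcases h with h | h
  · have : (u - 1) * (u * (y * x + u + 1)) = 0 := by
      rw [mul_add u, mul_add u, e, ← sub_eq_zero.2 h]; noncomm_ring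
    right
    simpa [u0, sub_eq_zero, h1, add_eq_zero_iff_eq_neg] using this
  · have : (u + 1) * (u * (y * x + u - 1)) = 0 := by
      rw [mul_sub, mul_add, e, ← add_eq_zero_iff_eq_neg.2 h]; noncomm_ring
    left
    simpa [u0, sub_eq_zero, h2, add_eq_zero_iff_eq_neg] using this

end Ring

variable {G D : Type*} [Group G] [Finite G] [DivisionRing D]

theorem comm_of_charP (φ : G →* D) (hφ : Function.Injective φ) (h : ringChar D ≠ 0) (a b : G) : a * b = b * a := by
  have hp : Fact (ringChar D).Prime := ⟨(CharP.char_is_prime_or_zero D _).resolve_right h⟩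
  let _ : Algebra (ZMod (ringChar D)) D := ZMod.algebra D _
  let Φ := MonoidAlgebra.lift (ZMod (ringChar D)) D G φ
  have : Finite (MonoidAlgebra (ZMod (ringChar D)) G) := Module.finite_of_finite (ZMod (ringChar D))
  have : Finite Φ.range := Finite.of_surjective _ Φ.rangeRestrict_surjective
  have m : ∀ g, φ g ∈ Φ.range := fun g => ⟨MonoidAlgebra.of _ _ g, by simp [Φ]⟩
  have e := congrArg Subtype.val ((Finite.isDomain_to_isField Φ.range).mul_comm ⟨_, m a⟩ ⟨_, m b⟩)
  exact hφ (by rw [map_mul, map_mul]; exact e)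

theorem amitsur (φ : G →* D) (hφ : Function.Injective φ) (hns : ¬ Group.IsSolvable G) :
    Nonempty (G ≃* Matrix.SpecialLinearGroup (Fin 2) (ZMod 5)) := by
  have hc : CharZero D := by
    by_contra h
    refine hns (Group.isSolvable_of_comm (comm_of_charP φ hφ fun e => h ?_))
    exact (CharP.ringChar_zero_iff_CharZero D).1 e
  obtain ⟨L, M, f, hL, -, ⟨e⟩, h1, h2, h3, -, h4, h30, -, hcard⟩ :=
    (CL.Perm.isFpf_of_hom_divisionRing φ hφ).nonsolvable_structure hns
  have sq : ∀ g : G, g ^ 2 = 1 → g ≠ 1 → φ g = -1 := fun g hg hg1 =>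
    (mul_self_eq_one_iff.1 (by rw [← map_mul, ← pow_two, hg, map_one])).resolve_left
      fun h => hg1 (hφ (h.trans φ.map_one.symm))
  have hM : M = ⊥ := by
    by_contra hM
    obtain ⟨p, hp, hpM⟩ := Nat.exists_prime_and_dvd (mt card_eq_one.1 hM)
    have := Fact.mk hp
    obtain ⟨x, hx⟩ := exists_prime_orderOf_dvd_card' p hpM
    let ψ : Matrix.SpecialLinearGroup (Fin 2) (ZMod 5) →* G := L.subtype.comp e.symm.toMonoidHom
    have hψ : Function.Injective (φ.comp ψ) := hφ.comp (L.subtype_injective.comp e.symm.injective)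
    have hz : φ.comp ψ (-1) = -1 := sq _ (by rw [← map_pow]; simp) fun h =>
      absurd ((L.subtype_injective.comp e.symm.injective) (h.trans ψ.map_one.symm)) (by decide)
    have cx : ∀ s, Commute (φ x) (φ.comp ψ s) := fun s =>
      Commute.map (show Commute (x : G) (ψ s) from (h3 x.2 _ (e.symm s).2).symm) φ
    let a : Matrix.SpecialLinearGroup (Fin 2) (ZMod 5) := ⟨!![0, -1; 1, 0], by decide⟩
    let b : Matrix.SpecialLinearGroup (Fin 2) (ZMod 5) := ⟨!![1, -1; 1, 0], by decide⟩
    refine no_sl25_mul (α := φ.comp ψ a) (β := φ.comp ψ b) ?_ ?_ ?_ ?_ ?_ (cx a) (cx b) hp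
      (h30.coprime_dvd_left hpM) ?_ ?_
    · rw [← map_mul, ← hz, show a * a = -1 by decide]
    · rw [← map_pow, ← hz, show b ^ 3 = -1 by decide]
    · rw [← hz, hψ.ne_iff]; exact fun h => absurd (congrArg (fun m => m.1 0 0) h) (by decide)
    · rw [← map_mul, ← map_pow, ← hz, show (a * b) ^ 5 = -1 by decide]
    · rw [← map_mul, ← hz, hψ.ne_iff]; decide
    · rw [← map_pow, ← coe_pow, ← hx, pow_orderOf_eq_one, coe_one, map_one]
    · intro h
      rw [show x = 1 from Subtype.ext (hφ (h.trans φ.map_one.symm)), orderOf_one] at hx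
      exact hp.one_lt.ne hx
  have h5 : L = ⊤ := by
    by_contra hne
    have hsurj : Function.Surjective f := by
      have hle : alternatingGroup (Fin 5) ≤ f.range := h2 ▸ map_le_range f L
      rw [← MonoidHom.range_eq_top, ← index_eq_one]
      have hd := index_dvd_of_le hle
      rw [alternatingGroup.index_eq_two] at hd
      refine ((Nat.dvd_prime Nat.prime_two).1 hd).resolve_right fun h => hne ?_
      have := CL.Perm.comap_alt_eq_sup h1 h2 h3 h4
      rw [← Equiv.Perm.eq_alternatingGroup_of_index_eq_two h, MonoidHom.comap_range_self, hM, sup_bot_eq] at this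
      exact this.symm
    have k1 : ∀ g, f g = 1 → g ^ 2 = 1 := fun g hg => by
      have hg' : g ∈ centralizer (L : Set G) := h1 ▸ hg
      have := pow_card_eq_one' (x := (⟨g, hg'⟩ : centralizer (L : Set G)))
      rw [hcard, hM, card_bot, mul_one] at this
      exact congrArg Subtype.val this
    have k2 : ∀ g, f g ≠ 1 → φ g ≠ 1 ∧ φ g ≠ -1 := fun g hg => by
      refine ⟨fun h => hg (by rw [hφ (h.trans φ.map_one.symm), map_one]), fun h => hg ?_⟩
      rw [← MonoidHom.mem_ker, h1]
      exact fun l _ => hφ (by rw [map_mul, map_mul, h, mul_neg_one, neg_one_mul])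
    have k3 : ∀ g, f g ≠ 1 → f g * f g = 1 → φ g * φ g = -1 := fun g hg hg2 => by
      rw [← map_mul]
      refine sq _ (k1 _ (by rw [map_mul, hg2])) fun h => ?_
      have := mul_self_eq_one_iff.1 (show φ g * φ g = 1 by rw [← map_mul, h, map_one])
      exact this.elim (k2 g hg).1 (k2 g hg).2
    have k4 : ∀ x y, φ x * φ x = -1 → φ y * φ y = -1 → f x * f y ≠ 1 → f x * f y * (f x * f y) = 1 →
        φ y * φ x = -(φ x * φ y) := fun x y hx hy h h' => by
      have := k3 (x * y) (by rwa [map_mul]) (by rwa [map_mul])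
      rw [map_mul] at this
      have e : φ x * φ y * (φ y * φ x) = 1 := by
        rw [mul_assoc, ← mul_assoc (φ y), hy, neg_one_mul, mul_neg, hx, neg_neg]
      exact mul_left_cancel₀ (left_ne_zero_of_mul_eq_one e) (by rw [e, mul_neg, this, neg_neg])
    have k5 : ∀ x y, φ x * φ x = -1 → φ y * φ y = -1 → f x * f y ≠ 1 → (f x * f y) ^ 3 = 1 →
        φ y * φ x + φ x * φ y = 1 ∨ φ y * φ x + φ x * φ y = -1 := fun x y hx hy h h' => by
      have := k2 (x * y) (by rwa [map_mul])
      rw [map_mul] at this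
      refine add_inv_of_cube hx hy ?_ this.1 this.2
      rw [← map_mul, ← map_pow, ← map_pow, k1 _ (by rw [map_pow, map_mul, h']), map_one]
    obtain ⟨a, ha⟩ := hsurj (Equiv.swap 0 1)
    obtain ⟨b, hb⟩ := hsurj (Equiv.swap 1 2)
    obtain ⟨c, hc⟩ := hsurj (Equiv.swap 2 3)
    obtain ⟨d, hd⟩ := hsurj (Equiv.swap 3 4)
    have sa := k3 a (by rw [ha]; decide) (by rw [ha]; decide)
    have sb := k3 b (by rw [hb]; decide) (by rw [hb]; decide)
    have sc := k3 c (by rw [hc]; decide) (by rw [hc]; decide)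
    have sd := k3 d (by rw [hd]; decide) (by rw [hd]; decide)
    exact no_cox' sa sb sc sd (k5 a b sa sb (by rw [ha, hb]; decide) (by rw [ha, hb]; decide))
      (k4 a c sa sc (by rw [ha, hc]; decide) (by rw [ha, hc]; decide))
      (k4 a d sa sd (by rw [ha, hd]; decide) (by rw [ha, hd]; decide))
      (k5 b c sb sc (by rw [hb, hc]; decide) (by rw [hb, hc]; decide))
      (k4 b d sb sd (by rw [hb, hd]; decide) (by rw [hb, hd]; decide))
      (k5 c d sc sd (by rw [hc, hd]; decide) (by rw [hc, hd]; decide))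
  exact ⟨(topEquiv.symm.trans (MulEquiv.subgroupCongr h5.symm)).trans e⟩

end CL.Amit
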