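/-
A non-cyclic group of order `q²` acting coprimely with abelian fixed-point subgroups: maximal invariant
`{p, r}`-subgroups, and solvability.
-/
import Cfsg.Agent.Fgs.MartA
import Cfsg.Agent.Grp.HallConverse

set_option autoImplicit false

open Subgroup Cfsg CL.Odd CL.Grp CL.Fgs
open scoped commutatorElement Pointwise

namespace CL.MartAb

universe u

variable {G : Type u} [Group G] [Finite G] {A K N X Y T P R E V H L : Subgroup G} {q p r : ℕ} {a b c : G}
  {π : Set ℕ}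

/-- An invariant `π`-subgroup. -/
structure PR (A K : Subgroup G) (π : Set ℕ) (X : Subgroup G) : Prop where
  le : X ≤ K
  norm : A ≤ N[X]
  pi : IsPiSubgroup π X

/-- Invariant Sylow subgroups `P`, `R` that do not generate a `{p, r}`-group. -/
structure Pair (A K : Subgroup G) (q p r : ℕ) (π : Set ℕ) (P R : Subgroup G) : Prop extends Min A K q where
  ne : p ≠ r
  mem : ∀ s, s ∈ π ↔ s = p ∨ s = r
  sP : IS A K p P
  sR : IS A K r R
  np : ¬ IsPiSubgroup π (P ⊔ R)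

omit [Finite G] in
theorem PR.of_le (h : PR A K π X) (hY : Y ≤ X) (hn : A ≤ N[Y]) : PR A K π Y :=
  ⟨hY.trans h.le, hn, isPiSubgroup_of_le h.pi hY⟩

omit [Finite G] in
theorem PR.sup (hX : PR A K π X) (hY : PR A K π Y) (hn : Y ≤ N[X]) : PR A K π (X ⊔ Y) :=
  ⟨sup_le hX.le hY.le, le_norm_sup hX.norm hY.norm, isPiSubgroup_sup' hX.pi hY.pi hn⟩

theorem PR.exists_max (h : PR A K π X) : ∃ H, X ≤ H ∧ Maximal (PR A K π) H := Finite.exists_le_maximal h

omit [Finite G] in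
theorem n_core (hn : A ≤ N[X]) (p : ℕ) : A ≤ N[pCoreOf p X] := hn.trans (normalizer_le_normalizer_pCoreOf p X)

omit [Finite G] in
theorem n_zcore (hn : A ≤ N[X]) (p : ℕ) : A ≤ N[Z[pCoreOf p X]] := (n_core hn p).trans (norm_le_norm_center _)

theorem zcore_ne (hp : p.Prime) (h : pCoreOf p X ≠ ⊥) : Z[pCoreOf p X] ≠ ⊥ :=
  center_ne_bot_of_nil (nil_of_isPGroup hp (pCoreOf_isPGroup p X)) h

namespace Pair

variable (h : Pair A K q p r π P R)
include h

omit [Finite G] in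
theorem symm : Pair A K q r p π R P :=
  ⟨h.toMin, h.ne.symm, fun s => (h.mem s).trans or_comm, h.sR, h.sP, sup_comm P R ▸ h.np⟩

omit [Finite G] in
theorem hp : p.Prime := h.sP.hp

omit [Finite G] in
theorem hr : r.Prime := h.sR.hp

theorem pr_p (hX : X ≤ K) (hn : A ≤ N[X]) (hp : IsPGroup p X) : PR A K π X :=
  have := Fact.mk h.hp
  ⟨hX, hn, isPiSubgroup_of_isPGroup hp ((h.mem p).2 (Or.inl rfl))⟩

theorem prP (hX : X ≤ P) (hn : A ≤ N[X]) : PR A K π X :=
  h.pr_p (hX.trans h.sP.syl.le) hn (h.sP.syl.isPGroup.to_le hX)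

theorem cop_pr (hX : IsPGroup p X) (hY : IsPGroup r Y) : (Nat.card X).Coprime (Nat.card Y) :=
  coprime_card_of_isPGroup_ne h.hp h.hr h.ne hX hY

theorem core_cent (X : Subgroup G) : pCoreOf p X ≤ C[pCoreOf r X] :=
  le_cent_of_coprime ((pCoreOf_le r X).trans (le_normalizer_pCoreOf p X))
    ((pCoreOf_le p X).trans (le_normalizer_pCoreOf r X)) (h.cop_pr (pCoreOf_isPGroup p X) (pCoreOf_isPGroup r X))

omit [Finite G] in
theorem lt (hX : PR A K π X) : X < K := lt_of_le_of_ne hX.le fun e =>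
  h.np (isPiSubgroup_of_le hX.pi (e ▸ sup_le h.sP.syl.le h.sR.syl.le))

omit [Finite G] in
theorem solX (hX : PR A K π X) : Group.IsSolvable X := h.sol X (h.lt hX) hX.norm

theorem le_sup (hX : PR A K π X) : X ≤ (X ⊓ P) ⊔ (X ⊓ R) := le_of_sylow_le fun s hs hd => by
  rcases (h.mem s).1 (hX.pi s hs hd) with rfl | rfl
  · exact ⟨_, h.syl_inf h.sP hX.le hX.norm, le_sup_left⟩
  · exact ⟨_, h.syl_inf h.sR hX.le hX.norm, le_sup_right⟩

theorem inf_le_hall (hN : N ≤ K) (hn : A ≤ N[N]) (hH : IsPiHallOf π H N) (hA : A ≤ N[H]) : N ⊓ P ≤ H := by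
  have := Fact.mk h.hp
  have h1 := sylow_of_hall (h.syl_inf h.sP (hH.1.trans hN) hA) hH ((h.mem p).2 (Or.inl rfl))
  exact (h1.eq_of_le (h.sP.syl.isPGroup.to_le inf_le_right) (inf_le_inf_right _ hH.1) inf_le_left).le.trans
    inf_le_left

/-- Invariant `π`-subgroups normalising a common non-trivial invariant `π`-subgroup generate a `π`-group. -/
theorem sup_of_norm (hT : PR A K π T) (h0 : T ≠ ⊥) (hX : PR A K π X) (hY : PR A K π Y) (h1 : X ≤ N[T])
    (h2 : Y ≤ N[T]) : PR A K π (X ⊔ Y) := by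
  have hlt := h.norm_lt hT.le hT.norm h0 (h.solX hT)
  have hn : A ≤ N[K ⊓ N[T]] := le_norm_inf h.norm (le_norm_norm hT.norm)
  obtain ⟨H, hH, hA⟩ := coprime_Hall_exists π hn (h.copX hlt.le) (h.sol _ hlt hn)
  have key : ∀ X, PR A K π X → X ≤ N[T] → X ≤ H := fun X hX h1 => (h.le_sup hX).trans (sup_le
    ((inf_le_inf_right _ (le_inf hX.le h1)).trans (h.inf_le_hall hlt.le hn hH hA))
    ((inf_le_inf_right _ (le_inf hX.le h1)).trans (h.symm.inf_le_hall hlt.le hn hH hA)))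
  exact ⟨sup_le hX.le hY.le, le_norm_sup hX.norm hY.norm,
    isPiSubgroup_of_le hH.2.1 (sup_le (key X hX h1) (key Y hY h2))⟩

theorem star (hH : Maximal (PR A K π) H) (hT : T ≤ H) (hn : H ≤ N[T]) (hA : A ≤ N[T]) (h0 : T ≠ ⊥)
    (hX : PR A K π X) (h1 : X ≤ N[T]) : X ≤ H :=
  le_sup_right.trans (hH.2 (h.sup_of_norm (hH.1.of_le hT hA) h0 hH.1 hX hn h1) le_sup_left)

theorem core_le (hX : IsPiSubgroup π X) : piCoreOf {p}ᶜ X ≤ pCoreOf r X := by
  have := Fact.mk h.hr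
  refine le_pCoreOf (piCoreOf_le _ X) (le_normalizer_piCoreOf _ X) (isPiSubgroup_singleton_iff.1 fun s hs hd => ?_)
  exact ((h.mem s).1 (hX s hs (hd.trans (card_dvd_of_le (piCoreOf_le _ X))))).resolve_left
    (piCoreOf_isPiSubgroup _ X s hs hd)

theorem len (hX : PR A K π X) : X ≤ pCoreOf r X ⊔ (X ⊓ N[X ⊓ P]) :=
  (h.len_one h.sP (h.lt hX) hX.norm).trans (sup_le_sup_right (h.core_le hX.pi) _)

theorem cent_le_core (hX : PR A K π X) : (X ⊓ P) ⊓ C[pCoreOf r X] ≤ pCoreOf p X :=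
  le_pCoreOf (inf_le_left.trans inf_le_left) ((h.len hX).trans (sup_le
    (le_norm_of_le_cent (cent_symm inf_le_right))
    (le_norm_inf inf_le_right (le_norm_cent (inf_le_left.trans (le_normalizer_pCoreOf r X))))))
    (h.sP.syl.isPGroup.to_le (inf_le_left.trans inf_le_right))

theorem star_z (hH : Maximal (PR A K π) H) (h0 : pCoreOf p H ≠ ⊥) (hX : PR A K π X)
    (h1 : X ≤ N[Z[pCoreOf p H]]) : X ≤ H :=
  h.star hH (inf_le_left.trans (pCoreOf_le p H)) (n_zcore (le_norm_self H) p) (n_zcore hH.1.norm p)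
    (zcore_ne h.hp h0) hX h1

theorem le_core (hH : Maximal (PR A K π) H) (h0 : pCoreOf r H ≠ ⊥) (hL : PR A K π L) (hZ : Z[pCoreOf r H] ≤ L)
    (hT : T ≤ pCoreOf p H) (hn : H ≤ N[T]) (hTL : T ≤ L) : T ≤ pCoreOf p L := by
  have := Fact.mk h.hp
  have hpT : IsPGroup p T := (pCoreOf_isPGroup p H).to_le hT
  have h1 : L ⊓ N[Z[pCoreOf r H]] ≤ H := h.symm.star_z hH h0
    (hL.of_le inf_le_left (le_norm_inf hL.norm (le_norm_norm (n_zcore hH.1.norm r)))) inf_le_right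
  refine le_trans (le_piCoreOf (le_inf hTL ?_) (h1.trans hn) (isPiSubgroup_of_isPGroup hpT h.ne))
    ((p'core_norm_pgroup h.hr (h.solX hL) ((pCoreOf_isPGroup r H).to_le inf_le_left) hZ).trans
      (h.symm.core_le hL.pi))
  exact (hT.trans (pCoreOf_le p H)).trans (n_zcore (le_norm_self H) r)

theorem core_le_max (hH : Maximal (PR A K π) H) (h0 : pCoreOf p H ≠ ⊥) (hL : PR A K π L)
    (hZ : Z[pCoreOf p H] ≤ pCoreOf p L) : pCoreOf r L ≤ H :=
  h.star_z hH h0 (hL.of_le (pCoreOf_le r L) (n_core hL.norm r))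
    (le_norm_of_le_cent ((h.symm.core_cent L).trans (cent_anti hZ)))

/-- Bender's uniqueness lemma. -/
theorem uniq (hH : Maximal (PR A K π) H) (h1 : pCoreOf p H ≠ ⊥) (h2 : pCoreOf r H ≠ ⊥) (hX : PR A K π X)
    (z1 : Z[pCoreOf p H] ≤ X) (z2 : Z[pCoreOf r H] ≤ X) : X ≤ H := by
  obtain ⟨L, hXL, hL⟩ := hX.exists_max
  replace z1 := z1.trans hXL
  replace z2 := z2.trans hXL
  have b1 := h.le_core hH h2 hL.1 z2 inf_le_left (n_zcore (le_norm_self H) p) z1
  have b1' := h.symm.le_core hH h1 hL.1 z1 inf_le_left (n_zcore (le_norm_self H) r) z2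
  have b2 := h.core_le_max hH h1 hL.1 b1
  have b2' := h.symm.core_le_max hH h2 hL.1 b1'
  have n1 : pCoreOf p L ≠ ⊥ := fun e => zcore_ne h.hp h1 (eq_bot_iff.2 (b1.trans e.le))
  have n2 : pCoreOf r L ≠ ⊥ := fun e => zcore_ne h.hr h2 (eq_bot_iff.2 (b1'.trans e.le))
  have b3 := h.le_core hL n2 hH.1 (inf_le_left.trans b2) le_rfl (le_normalizer_pCoreOf p L) b2'
  have b4 := h.core_le_max hL n1 hH.1 (inf_le_left.trans b3)
  have b5 := h.symm.le_core hH h1 hL.1 z1 le_rfl (le_normalizer_pCoreOf r H) b4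
  have b6 := h.symm.le_core hL n1 hH.1 (inf_le_left.trans b2') le_rfl (le_normalizer_pCoreOf r L) b2
  exact hXL.trans (h.star hH (pCoreOf_le r H) (le_normalizer_pCoreOf r H) (n_core hH.1.norm r) h2 hL.1
    (le_antisymm b5 b6 ▸ le_normalizer_pCoreOf r L))

theorem c1_le_of_core (hH : Maximal (PR A K π) H) (h1 : pCoreOf p H ≠ ⊥) (h2 : pCoreOf r H ≠ ⊥) (ha : a ∈ A)
    (ha1 : a ≠ 1) (h0 : pCoreOf p H ⊓ C1[a] ≠ ⊥) (hX : PR A K π X) (hXa : X ≤ C1[a]) : X ≤ H := by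
  have hE : PR A K π (pCoreOf p H ⊓ C1[a]) :=
    hH.1.of_le (inf_le_left.trans (pCoreOf_le p H)) (le_norm_inf (n_core hH.1.norm p) (h.n_c1 ha))
  have hZ : PR A K π (Z[pCoreOf p H] ⊔ Z[pCoreOf r H]) := hH.1.of_le
    (sup_le (inf_le_left.trans (pCoreOf_le p H)) (inf_le_left.trans (pCoreOf_le r H)))
    (le_norm_sup (n_zcore hH.1.norm p) (n_zcore hH.1.norm r))
  refine le_sup_right.trans (h.uniq hH h1 h2 (h.sup_of_norm hE h0 hZ hX (le_norm_of_le_cent (sup_le ?_ ?_))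
    (le_norm_of_le_cent (h.cent ha ha1 hX.le hE.le hXa inf_le_right))) (le_sup_left.trans le_sup_left)
    (le_sup_right.trans le_sup_left))
  · exact inf_le_right.trans (cent_anti inf_le_left)
  · exact inf_le_left.trans ((h.symm.core_cent H).trans (cent_anti inf_le_left))

theorem comm_eq (hH : PR A K π H) (ha : a ∈ A) (ha1 : a ≠ 1) (h1 : pCoreOf p H ⊓ C1[a] = ⊥)
    (h2 : pCoreOf r H ⊓ C1[a] = ⊥) : ⁅H ⊓ R, zpowers a⁆ = pCoreOf r H := by
  have hz : zpowers a ≤ A := zpowers_le.2 ha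
  have hK : ∀ s, pCoreOf s H ≤ K := fun s => (pCoreOf_le s H).trans hH.le
  have hn : A ≤ N[H ⊓ R] := le_norm_inf hH.norm h.sR.norm
  have hr : IsPGroup r ↥(H ⊓ R) := h.sR.syl.isPGroup.to_le inf_le_right
  have key : H ⊓ R ≤ pCoreOf r H ⊔ (H ⊓ C1[a]) := h.gen (inf_le_left.trans hH.le) hn fun b hb hb1 => by
    by_cases e : a ∈ zpowers b
    · refine le_trans (inf_le_inf inf_le_left ?_) le_sup_right
      rw [← centralizer_zpowers]; exact cent_le_c1 e
    · refine (le_inf inf_le_left ?_).trans ((h.symm.cent_le_core hH).trans le_sup_left)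
      exact h.frob hb hb1 ha e ((inf_le_left.trans inf_le_left).trans hH.le) inf_le_right
        (le_norm_inf hn (h.n_c1 hb)) (hK p) (n_core hH.norm p)
        ((inf_le_left.trans inf_le_left).trans (le_normalizer_pCoreOf p H))
        (sol_of_isPGroup h.hp (pCoreOf_isPGroup p H)) (h.cop_pr (pCoreOf_isPGroup p H) (hr.to_le inf_le_left))
        (h1.le.trans bot_le)
  refine le_antisymm ((commutator_mono key le_rfl).trans (comm_sup_left_le
    (sup_le (le_norm_self _) (inf_le_left.trans (le_normalizer_pCoreOf r H)))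
    (comm_le_left (hz.trans (n_core hH.norm r))) ?_)) ?_
  · rw [comm_eq_bot_iff.2 (inf_le_right.trans (centralizer_zpowers a).ge)]; exact bot_le
  · refine (HH.comm_eq_of_fpf (hz.trans (n_core hH.norm r)) (coprime_of_le_left (h.copX (hK r)) hz)
      (Or.inl (sol_of_le h.solA hz)) (by rwa [centralizer_zpowers])).ge.trans (commutator_mono ?_ le_rfl)
    exact le_inf (pCoreOf_le r H) (h.le_syl h.sR (hK r) (n_core hH.norm r) (pCoreOf_isPGroup r H))

theorem R_le (hH : Maximal (PR A K π) H) (h1 : pCoreOf p H ≠ ⊥) (h2 : pCoreOf r H ≠ ⊥) : R ≤ H := by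
  have hn : A ≤ N[R ⊓ N[H ⊓ R]] := le_norm_inf h.sR.norm (le_norm_norm (le_norm_inf hH.1.norm h.sR.norm))
  refine inf_eq_right.1 (eq_of_inf_norm_le_of_nil (nil_of_isPGroup h.hr h.sR.syl.isPGroup) inf_le_right
    (le_inf (h.gen (inf_le_left.trans h.sR.syl.le) hn fun a ha ha1 => ?_) inf_le_left))
  have hX : PR A K π (R ⊓ N[H ⊓ R] ⊓ C1[a]) :=
    h.symm.prP (inf_le_left.trans inf_le_left) (le_norm_inf hn (h.n_c1 ha))
  by_cases e1 : pCoreOf p H ⊓ C1[a] = ⊥
  · by_cases e2 : pCoreOf r H ⊓ C1[a] = ⊥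
    · refine h.star hH (pCoreOf_le r H) (le_normalizer_pCoreOf r H) (n_core hH.1.norm r) h2 hX ?_
      rw [← h.comm_eq hH.1 ha ha1 e1 e2]
      exact le_norm_comm (inf_le_left.trans inf_le_right) (le_norm_zpowers_of_le_c1 inf_le_right)
    · exact h.symm.c1_le_of_core hH h2 h1 ha ha1 e2 hX inf_le_right
  · exact h.c1_le_of_core hH h1 h2 ha ha1 e1 hX inf_le_right

theorem core_bot (hH : Maximal (PR A K π) H) : pCoreOf p H = ⊥ ∨ pCoreOf r H = ⊥ := by
  by_contra hc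
  push Not at hc
  exact h.np (isPiSubgroup_of_le hH.1.pi (sup_le (h.symm.R_le hH hc.2 hc.1) (h.R_le hH hc.1 hc.2)))

theorem le_norm_of_core (hH : Maximal (PR A K π) H) (h0 : pCoreOf r H = ⊥) : H ≤ N[P] := by
  have h1 : H ≤ N[H ⊓ P] := (h.len hH.1).trans (sup_le (h0.le.trans bot_le) inf_le_right)
  have hn : A ≤ N[H ⊓ P] := le_norm_inf hH.1.norm h.sP.norm
  by_cases e : H ⊓ P = ⊥
  · have h2 : H ≤ R := (h.le_sup hH.1).trans (sup_le (e.le.trans bot_le) inf_le_right)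
    exact (le_pCoreOf le_rfl (le_norm_self H) (h.sR.syl.isPGroup.to_le h2)).trans (h0.le.trans bot_le)
  · rwa [eq_of_inf_norm_le_of_nil (nil_of_isPGroup h.hp h.sP.syl.isPGroup) inf_le_right (le_inf
      (h.star hH inf_le_left h1 hn e (h.prP inf_le_left (le_norm_inf h.sP.norm (le_norm_norm hn))) inf_le_right)
      inf_le_left)] at h1

theorem dich (hX : PR A K π X) : X ≤ N[P] ∨ X ≤ N[R] := by
  obtain ⟨H, h1, hH⟩ := hX.exists_max
  exact (h.core_bot hH).symm.imp (fun e => h1.trans (h.le_norm_of_core hH e))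
    fun e => h1.trans (h.symm.le_norm_of_core hH e)

theorem not_norm : ¬ R ≤ N[P] := fun e =>
  h.np ((h.prP le_rfl h.sP.norm).sup (h.symm.prP le_rfl h.sR.norm) e).pi

theorem P_ne : P ≠ ⊥ := fun e => h.not_norm (by rw [e, norm_bot]; exact le_top)

theorem cent_bot : P ⊓ C[R] = ⊥ := by
  obtain ⟨H, h1, hH⟩ := ((h.symm.prP le_rfl h.sR.norm).sup
    (h.prP inf_le_left (le_norm_inf h.sP.norm (le_norm_cent h.sR.norm)))
    (le_norm_of_le_cent inf_le_right)).exists_max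
  have h2 := (h.core_bot hH).resolve_right fun e =>
    h.not_norm (le_sup_left.trans (h1.trans (h.le_norm_of_core hH e)))
  refine eq_bot_iff.2 (le_trans (le_inf (le_inf (le_sup_right.trans h1) inf_le_left)
    (inf_le_right.trans (cent_anti ?_))) ((h.cent_le_core hH.1).trans h2.le))
  exact h.le_syl h.sR ((pCoreOf_le r H).trans hH.1.le) (n_core hH.1.norm r) (pCoreOf_isPGroup r H)

theorem norm_cent : R ⊓ N[P] ≤ C[P ⊓ N[R]] :=
  le_cent_of_coprime (le_norm_inf inf_le_right (le_norm_norm (le_norm_of_le inf_le_left)))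
    (le_norm_inf inf_le_right (le_norm_norm (le_norm_of_le inf_le_left)))
    (h.symm.cop_pr (h.sR.syl.isPGroup.to_le inf_le_left) (h.sP.syl.isPGroup.to_le inf_le_left))

theorem frobR (hb : b ∈ A) (h1 : b ≠ 1) (hc : c ∈ A) (hcb : c ∉ zpowers b) (hE : E ≤ P ⊓ N[R]) (hEb : E ≤ C1[b])
    (hn : A ≤ N[E]) (hf : R ⊓ C1[c] ≤ C[E]) : E = ⊥ :=
  eq_bot_iff.2 ((le_inf (hE.trans inf_le_left) (h.frob hb h1 hc hcb ((hE.trans inf_le_left).trans h.sP.syl.le) hEb
    hn h.sR.syl.le h.sR.norm (hE.trans inf_le_right) (sol_of_isPGroup h.hr h.sR.syl.isPGroup)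
    (h.symm.cop_pr h.sR.syl.isPGroup (h.sP.syl.isPGroup.to_le (hE.trans inf_le_left))) hf)).trans h.cent_bot.le)

theorem dich_c1 (ha : a ∈ A) (h1 : a ≠ 1) : R ⊓ C1[a] ≤ N[P] ∨ P ⊓ C1[a] ≤ N[R] :=
  (h.dich ((h.prP inf_le_left (le_norm_inf h.sP.norm (h.n_c1 ha))).sup
    (h.symm.prP inf_le_left (le_norm_inf h.sR.norm (h.n_c1 ha))) (le_norm_of_le_cent (h.cent ha h1
      (inf_le_left.trans h.sR.syl.le) (inf_le_left.trans h.sP.syl.le) inf_le_right inf_le_right)))).imp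
    le_sup_right.trans le_sup_left.trans

theorem exists_E (h0 : P ⊓ N[R] ≠ ⊥) : ∃ a ∈ A, a ≠ 1 ∧ R ⊓ C1[a] ≤ N[P] ∧
    ∀ c ∈ A, c ∉ zpowers a → ¬ R ⊓ C1[c] ≤ N[P] := by
  have nZ : A ≤ N[Z[P]] := h.sP.norm.trans (norm_le_norm_center P)
  obtain ⟨D, hD, nD, D0, U, hU, nU, hUD, hUR⟩ : ∃ D, D ≤ P ⊓ N[R] ∧ A ≤ N[D] ∧ D ≠ ⊥ ∧
      ∃ U, U ≤ P ∧ A ≤ N[U] ∧ U ≤ C[D] ∧ ¬ U ≤ N[R] := by
    by_cases e : Z[P] ≤ N[R]
    · exact ⟨Z[P], le_inf inf_le_left e, nZ, center_ne_bot_of_nil (nil_of_isPGroup h.hp h.sP.syl.isPGroup) h.P_ne,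
        P, le_rfl, h.sP.norm, cent_symm inf_le_right, h.symm.not_norm⟩
    · exact ⟨_, le_rfl, le_norm_inf h.sP.norm (le_norm_norm h.sR.norm), h0, Z[P], inf_le_left, nZ,
        inf_le_right.trans (cent_anti inf_le_left), e⟩
  have hDK : D ≤ K := (hD.trans inf_le_left).trans h.sP.syl.le
  obtain ⟨a, ha, ha1, hE⟩ := h.exists_c1 hDK nD (M := ⊥) fun e => D0 (eq_bot_iff.2 e)
  have nE : A ≤ N[D ⊓ C1[a]] := le_norm_inf nD (h.n_c1 ha)
  refine ⟨a, ha, ha1, ?_, fun c hc hca e => hE (h.frobR ha ha1 hc hca (inf_le_left.trans hD) inf_le_right nE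
    ((le_inf inf_le_left e).trans (h.norm_cent.trans (cent_anti (inf_le_left.trans hD))))).le⟩
  exact le_sup_right.trans ((h.dich (h.sup_of_norm (h.prP (inf_le_left.trans (hD.trans inf_le_left)) nE)
    (fun e => hE e.le) (h.prP hU nU) (h.symm.prP inf_le_left (le_norm_inf h.sR.norm (h.n_c1 ha)))
    (le_norm_of_le_cent (hUD.trans (cent_anti inf_le_left))) (le_norm_of_le_cent (h.cent ha ha1
      (inf_le_left.trans h.sR.syl.le) (inf_le_left.trans hDK) inf_le_right inf_le_right)))).resolve_right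
    fun e => hUR (le_sup_left.trans e))

theorem le_c1 (ha : a ∈ A) (hc : ∀ c ∈ A, c ∉ zpowers a → P ⊓ C1[c] = ⊥) : P ≤ C1[a] :=
  h.gen h.sP.syl.le h.sP.norm fun b hb hb1 => by
    by_cases e : b ∈ zpowers a
    · rw [← centralizer_zpowers b]; exact inf_le_right.trans (cent_le_c1 (h.mem_zp ha e hb1))
    · exact (hc b hb e).le.trans bot_le

theorem norm_bot : P ⊓ N[R] = ⊥ := by
  by_contra h0
  obtain ⟨a, ha, ha1, h1, h2⟩ := h.exists_E h0
  have ne1 : ∀ c, c ∉ zpowers a → c ≠ 1 := fun c hc e => hc (e ▸ one_mem _)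
  have h3 : ∀ c ∈ A, c ∉ zpowers a → P ⊓ C1[c] ≤ N[R] := fun c hc hca =>
    (h.dich_c1 hc (ne1 c hca)).resolve_left (h2 c hc hca)
  by_cases e : R ⊓ N[P] = ⊥
  · refine h.not_le_c1 h.sP h.P_ne ha ha1 (h.le_c1 ha fun c hc hca => h.frobR hc (ne1 c hca) ha
      (fun e' => hca (h.mem_zp hc e' ha1)) (le_inf inf_le_left (h3 c hc hca)) inf_le_right
      (le_norm_inf h.sP.norm (h.n_c1 hc)) ?_)
    exact (le_inf inf_le_left h1).trans (e.le.trans bot_le)
  · obtain ⟨b, hb, hb1, -, h4⟩ := h.symm.exists_E e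
    obtain ⟨c, hc, hca, hcb⟩ := h.exists_third ha ha1 hb hb1
    exact h4 c hc hcb (h3 c hc hca)

theorem false_of_odd (h2 : p ≠ 2) : False := by
  have := Fact.mk h.hp
  have sP := sol_of_isPGroup h.hp h.sP.syl.isPGroup
  have hlt := h.norm_lt h.sP.syl.le h.sP.norm h.P_ne sP
  have hn : A ≤ N[K ⊓ N[P]] := le_norm_inf h.norm (le_norm_norm h.sP.norm)
  obtain ⟨U, hU, nU⟩ := coprime_Hall_exists {p}ᶜ hn (h.copX hlt.le) (h.sol _ hlt hn)
  have hUK : U ≤ K := hU.1.trans inf_le_left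
  by_cases e : U ≤ C[P]
  · have hs : U ⊔ P = K ⊓ N[P] := by
      rw [sup_comm]
      exact Hall.sup_eq (sylow_hall (h.sP.syl.of_le (le_inf h.sP.syl.le (le_norm_self P)) inf_le_left)) hU
    have key : ∀ T : Subgroup G, T ≤ P → T ≠ ⊥ → N[P] ≤ N[T] → HasNormalPComplement p ↥(K ⊓ N[T]) := by
      intro T hT T0 nT
      have nA : A ≤ N[T] := h.sP.norm.trans nT
      have h3 := h.len_one h.sP (h.norm_lt (hT.trans h.sP.syl.le) nA T0 (sol_of_le sP hT))
        (le_norm_inf h.norm (le_norm_norm nA))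
      have hP : P ≤ K ⊓ N[T] := le_inf h.sP.syl.le ((le_norm_self P).trans nT)
      have hUN : U ≤ K ⊓ N[T] := le_inf hUK ((hU.1.trans inf_le_right).trans nT)
      rw [inf_eq_right.2 hP] at h3
      refine (pnilp_iff h.hp).1 ((pnilp_of_sup h.hp (isPiSubgroup_sup' (piCoreOf_isPiSubgroup {p}ᶜ (K ⊓ N[T]))
        hU.2.1 (hUN.trans (le_normalizer_piCoreOf _ _))) h.sP.syl.isPGroup
        (le_norm_sup (hP.trans (le_normalizer_piCoreOf _ _)) (le_norm_of_le_cent (cent_symm e)))).1.of_le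
        (h3.trans ?_))
      rw [sup_assoc, hs]
      exact sup_le_sup_left (inf_le_inf_right _ inf_le_left) _
    refine h.not_pnilp h.sP h.P_ne ((pnilp_iff h.hp).2 (thompson_normal_p_complement_in h2 h.sP.syl
      (key _ (Loc.thompsonSubgroupOf_le P) (Loc.thompsonSubgroupOf_ne_bot_of_isPGroup h.sP.syl.isPGroup h.P_ne)
        (Loc.normalizer_le_normalizer_thompsonSubgroupOf P))
      (HasNormalPComplement.of_le (key _ inf_le_left
        (center_ne_bot_of_nil (nil_of_isPGroup h.hp h.sP.syl.isPGroup) h.P_ne) (norm_le_norm_center P))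
        (inf_le_inf_left _ (cent_le_norm _)))))
  · obtain ⟨a, ha, ha1, hE⟩ := h.exists_c1 hUK nU e
    refine h.not_le_c1 h.sR h.symm.P_ne ha ha1 (h.symm.le_c1 ha fun c hc hca => ?_)
    have c1 : c ≠ 1 := fun e => hca (e ▸ one_mem _)
    refine (h.dich_c1 hc c1).elim (fun e => eq_bot_iff.2 ((le_inf inf_le_left e).trans h.symm.norm_bot.le))
      fun e => absurd (h.frob ha ha1 hc hca (inf_le_left.trans hUK) inf_le_right (le_norm_inf nU (h.n_c1 ha))
        h.sP.syl.le h.sP.norm (inf_le_left.trans (hU.1.trans inf_le_right)) sP ?_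
        ((le_inf inf_le_left e).trans (h.norm_bot.le.trans bot_le))) hE
    exact coprime_card_of_pi_compl (isPiSubgroup_singleton_iff.2 h.sP.syl.isPGroup)
      (isPiSubgroup_of_le hU.2.1 inf_le_left)

theorem false : False := by
  by_cases e : p = 2
  · exact h.symm.false_of_odd fun e' => h.ne (e.trans e'.symm)
  · exact h.false_of_odd e

end Pair

theorem Min.false (h : Min A K q) : False := by
  choose S hS using fun p : Nat.Primes => exists_IS h.toHyp p.2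
  have key : ∀ p r : Nat.Primes, p ≠ r → IsProd (S p) (S r) (S p ⊔ S r) := fun p r hne => by
    have := Fact.mk p.2
    have := Fact.mk r.2
    have hne' : (p : ℕ) ≠ r := fun e => hne (Subtype.ext e)
    have hπ : IsPiSubgroup {(p : ℕ), (r : ℕ)} (S p ⊔ S r) := by
      by_contra hc
      exact Pair.false ⟨h, hne', fun s => Iff.rfl, hS p, hS r, hc⟩
    have hle : S p ⊔ S r ≤ K := sup_le (hS p).syl.le (hS r).syl.le
    refine IsProd.of_hall (π := {(p : ℕ)}) (sylow_hall ((hS p).syl.of_le le_sup_left hle))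
      (Hall.congr (sylow_hall ((hS r).syl.of_le le_sup_right hle)) fun s hs hd => ?_)
    rcases hπ s hs hd with rfl | rfl
    · simp [hne']
    · simp [hne'.symm]
  refine h.nsol (isSolvable_of_sylowSystem
    (fun p => have := Fact.mk p.2; (hS p).syl.toSylow) fun p r => ?_)
  have k2 : ∀ p r : Nat.Primes, (((S p).subgroupOf K : Subgroup K) : Set K) * ((S r).subgroupOf K : Subgroup K) ⊆
      (((S r).subgroupOf K : Subgroup K) : Set K) * ((S p).subgroupOf K : Subgroup K) := fun p r => by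
    by_cases e : p = r
    · rw [e]
    rintro _ ⟨x, hx, y, hy, rfl⟩
    obtain ⟨b, hb, a, ha, e'⟩ := (key p r e).exists_mul' (mul_mem (mem_sup_left hx) (mem_sup_right hy))
    exact ⟨⟨b, (hS r).syl.le hb⟩, hb, ⟨a, (hS p).syl.le ha⟩, ha, Subtype.ext e'.symm⟩
  exact (k2 p r).antisymm (k2 r p)

theorem Hyp.solvable (h : Hyp A K q) : Group.IsSolvable K :=
  solvable_of_min (fun _ _ _ _ _ h => h.false) h

end CL.MartAb
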