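/-
Powell's theorem: a non-abelian simple group whose proper subgroups are `p`-soluble is generated by three elements.
A 2-generated subgroup of maximal height has its last term inside `O_π(H)` for every proper `H` containing it.
-/
import Cfsg.Agent.Fgs.PiPart
import Cfsg.Agent.Loc.FFHol
import Cfsg.Agent.Grp.Coprime
import Cfsg.Agent.Grp.Hall2
import Cfsg.Agent.Even.Amb

set_option autoImplicit false
open Cfsg Subgroup CL.Even CL.Grp CL.Loc
open scoped commutatorElement Pointwise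

namespace CL.Fgs.Pow

variable {G : Type*} [Group G] {G' : Type*} [Group G'] {π : Set ℕ}

/-- the subgroup generated by the `π`-elements of `U`. -/
def gn (π : Set ℕ) (U : Subgroup G) : Subgroup G := closure {x | x ∈ U ∧ IsPiElt π x}

/-- `π, π', π, …` -/
def alt (π : Set ℕ) : ℕ → Set ℕ
  | 0 => π
  | n + 1 => (alt π n)ᶜ

/-- the lower `π`-series. -/
def tw (π : Set ℕ) : ℕ → Subgroup G → Subgroup G
  | 0, U => U
  | n + 1, U => gn (alt π n) (tw π n U)

theorem alt_eq (n : ℕ) : alt π n = π ∨ alt π n = πᶜ := by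
  induction n with
  | zero => exact Or.inl rfl
  | succ n ih => rcases ih with h | h <;> simp [alt, h]

theorem gn_le (U : Subgroup G) : gn π U ≤ U := (closure_le _).2 fun _ h => h.1

theorem gn_map [Finite G] [Finite G'] (f : G →* G') (U : Subgroup G) : (gn π U).map f = gn π (U.map f) := by
  rw [gn, MonoidHom.map_closure]
  congr 1
  ext y
  constructor
  · rintro ⟨x, hx, rfl⟩
    exact ⟨mem_map_of_mem f hx.1, hx.2.map f⟩
  · rintro ⟨⟨x, hx, rfl⟩, h⟩
    exact ⟨piPart π x, ⟨piPart_mem hx, isPiElt_piPart π x⟩, by rw [map_piPart, piPart_eq_self h]⟩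

theorem tw_map [Finite G] [Finite G'] (f : G →* G') (n : ℕ) (U : Subgroup G) :
    (tw π n U).map f = tw π n (U.map f) := by
  induction n with
  | zero => rfl
  | succ n ih => rw [tw, gn_map, ih, tw]

theorem tw_succ_le (n : ℕ) (U : Subgroup G) : tw π (n + 1) U ≤ tw π n U := gn_le _

theorem tw_le (n : ℕ) (U : Subgroup G) : tw π n U ≤ U := by
  induction n with
  | zero => exact le_rfl
  | succ n ih => exact (tw_succ_le n U).trans ih

theorem map_pair (f : G →* G') (a b : G) : (closure {a, b}).map f = closure {f a, f b} := by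
  rw [MonoidHom.map_closure, Set.image_pair]

variable [Finite G]

theorem le_norm_tw (n : ℕ) (U : Subgroup G) : U ≤ 𝒩(tw π n U) := fun g hg => by
  rw [← cj_eq_iff_mem, tw_map]
  exact congrArg _ (cj_eq (le_normalizer hg))

theorem pi_of_gn {U : Subgroup G} (h : gn π U = ⊥) : IsPiSubgroup πᶜ U :=
  isPiNum_card_of_forall fun x hx => piPart_eq_one_iff.1
    (mem_bot.1 (h.le (subset_closure ⟨piPart_mem hx, isPiElt_piPart π x⟩)))

variable {p : ℕ} [hp : Fact p.Prime]

omit [Finite G] in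
theorem eq_bot_of_below {L : Subgroup G} (h : PSolvBelow p L) {K : Subgroup G} (hK : K ≤ L) (h1 : gn {p} K = K)
    (h2 : gn {p}ᶜ K = K) : K = ⊥ := by
  induction h with
  | bot => exact le_bot_iff.1 hK
  | step H L hH _ _ hi _ ih =>
    refine ih ?_
    have key : ∀ σ : Set ℕ, IsPiNum σᶜ (H.relIndex L) → gn σ K ≤ H := fun σ hσ =>
      (closure_le _).2 fun x hx => CL.Even.mem_of_pow_mem_of_coprime (IsPiNum.coprime hx.2 hσ)
        (pow_relIndex_mem H (hK hx.1))
    rcases hi with ⟨m, hm⟩ | hi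
    · exact h2 ▸ key _ (by rw [compl_compl, hm]; exact isPiNum_singleton_pow hp.out m)
    · exact h1 ▸ key _ ((isPiNum_compl_singleton_iff hp.out).2 ((Nat.Prime.coprime_iff_not_dvd hp.out).1 hi.symm))

theorem exists_tw_eq_bot {U : Subgroup G} (h : IsPSolvable p U) : ∃ n, tw {p} n U = ⊥ := by
  obtain ⟨n, hn⟩ : ∃ n, ∀ m, Nat.card (tw {p} n U) ≤ Nat.card (tw {p} m U) :=
    ⟨_, fun m => Function.argmin_le (fun n => Nat.card (tw {p} n U)) m⟩
  have e1 : tw {p} (n + 1) U = tw {p} n U := eq_of_le_of_card_ge (tw_succ_le n U) (hn _)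
  have e2 : tw {p} (n + 2) U = tw {p} n U :=
    eq_of_le_of_card_ge ((tw_succ_le _ U).trans (tw_succ_le n U)) (hn _)
  rw [tw, e1, alt] at e2
  rw [tw] at e1
  refine ⟨n, ?_⟩
  have hle := tw_le (π := {p}) n U
  have key : ∀ σ, gn σ (tw {p} n U) = tw {p} n U →
      gn σ ((tw {p} n U).subgroupOf U) = (tw {p} n U).subgroupOf U := fun σ e =>
    map_injective U.subtype_injective (by rw [gn_map, map_subgroupOf_eq_of_le hle, e])
  rw [← map_subgroupOf_eq_of_le hle, eq_bot_of_below (isPSolvable_iff_below.1 h) le_top (key _ ?_) (key _ ?_),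
    Subgroup.map_bot]
  · rcases alt_eq (π := {p}) n with e | e
    · rwa [e] at e1
    · rwa [e, compl_compl] at e2
  · rcases alt_eq (π := {p}) n with e | e
    · rwa [e] at e2
    · rwa [e] at e1

omit hp in
/-- The counting argument. -/
theorem le_cent_of_forall {σ : Set ℕ} {n : ℕ} (hQ : ∀ a b : G, IsPiSubgroup π (tw σ n (closure {a, b})))
    {R : Subgroup G} [R.Normal] (hR : IsPiSubgroup πᶜ R) (a b : G)
    (hs : Group.IsSolvable R ∨ Group.IsSolvable (tw σ n (closure {a, b}))) : tw σ n (closure {a, b}) ≤ 𝒞(R) := by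
  set K := tw σ n (closure {a, b}) with hK
  have hco : ∀ a b : G, (Nat.card R).Coprime (Nat.card (tw σ n (closure {a, b}))) := fun a b =>
    coprime_card_of_isPiSubgroup hR (hQ a b) disjoint_compl_left
  have hC : R ⊓ 𝒩(K) = R ⊓ 𝒞(K) := inf_normalizer_eq_inf_centralizer_of_disjoint le_normalizer_of_normal
    (disjoint_of_coprime_natCard (hco a b).symm)
  have hn := ‹R.Normal›
  let F : G → R → (R ⊓ 𝒞(K) : Subgroup G) → R := fun u m c => ⟨u⁻¹ * m * u * c * (m : G)⁻¹,
    mul_mem (mul_mem (hn.conj_mem' _ m.2 u) c.2.1) (inv_mem m.2)⟩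
  have hsurj : Function.Surjective fun x : (R ⧸ (R ⊓ 𝒞(K)).subgroupOf R) × (R ⊓ 𝒞(K) : Subgroup G) ×
      (R ⊓ 𝒞(K) : Subgroup G) => (F a x.1.out x.2.1, F b x.1.out x.2.2) := by
    rintro ⟨v, w⟩
    have e : R ⊔ K = R ⊔ tw σ n (closure {a * v, b * w}) := by
      have h1 : K.map (QuotientGroup.mk' R) = (tw σ n (closure {a * v, b * w})).map (QuotientGroup.mk' R) := by
        rw [hK, tw_map, tw_map, map_pair, map_pair]
        simp
      have h2 := congrArg (comap (QuotientGroup.mk' R)) h1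
      rwa [comap_map_eq, comap_map_eq, QuotientGroup.ker_mk', sup_comm, sup_comm _ R] at h2
    obtain ⟨m, hm, e'⟩ := schurZassenhaus_conj_of_sup_eq le_normalizer_of_normal (hco a b) (hco _ _) e hs
    obtain ⟨c, hc⟩ := QuotientGroup.mk_out_eq_mul ((R ⊓ 𝒞(K)).subgroupOf R) ⟨m, hm⟩
    generalize hq : (QuotientGroup.mk ⟨m, hm⟩ : R ⧸ (R ⊓ 𝒞(K)).subgroupOf R) = q at hc
    have e2 : cj (q.out : G) K = tw σ n (closure {a * v, b * w}) := by
      rw [hc, coe_mul, cj_mul, cj_eq_of_mem_cent (mem_subgroupOf.1 c.2).2]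
      exact e'
    have key : ∀ (u : G) (x : R), u ∈ closure {a, b} → u * x ∈ closure {a * v, b * w} →
        ∃ c, F u q.out c = x := fun u x h1 h2 => by
      have h3 := le_norm_tw (π := σ) n _ h2
      rw [← e2, ← cj_norm, mem_cj] at h3
      refine ⟨⟨u⁻¹ * ((q.out : G)⁻¹ * (u * x) * q.out), hC.le (mem_inf.2 ⟨?_, mul_mem (inv_mem (le_norm_tw n _ h1)) h3⟩)⟩,
        Subtype.ext (by simp only [F]; group)⟩
      rw [show u⁻¹ * ((q.out : G)⁻¹ * (u * x) * q.out) = u⁻¹ * (q.out : G)⁻¹ * u * x * q.out by group]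
      exact mul_mem (mul_mem (hn.conj_mem' _ (inv_mem q.out.2) u) x.2) q.out.2
    obtain ⟨c1, h1⟩ := key a v (subset_closure (by simp)) (subset_closure (by simp))
    obtain ⟨c2, h2⟩ := key b w (subset_closure (by simp)) (subset_closure (by simp))
    exact ⟨(q, c1, c2), Prod.ext h1 h2⟩
  have h1 := Nat.card_le_card_of_surjective _ hsurj
  have h2 := card_eq_card_quotient_mul_card_subgroup ((R ⊓ 𝒞(K)).subgroupOf R)
  rw [card_subgroupOf_of_le inf_le_left] at h2
  rw [Nat.card_prod, Nat.card_prod, Nat.card_prod, ← mul_assoc, ← h2] at h1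
  have h3 := eq_of_le_of_card_ge (inf_le_left : R ⊓ 𝒞(K) ≤ R) (Nat.le_of_mul_le_mul_left h1 Nat.card_pos)
  exact le_centralizer_iff.1 (h3.ge.trans inf_le_right)

theorem mem_core (hπ : π = {p} ∨ π = {p}ᶜ) (h : IsPSolvable p G) {c : G} (hc : IsPiElt π c)
    (h1 : QuotientGroup.mk' (piCore π G) c ∈ 𝒞(piCore πᶜ (G ⧸ piCore π G))) : c ∈ piCore π G := by
  have h2 : 𝒞(piCore πᶜ (G ⧸ piCore π G)) ≤ piCore πᶜ (G ⧸ piCore π G) := by
    have h3 := piCore_quotient_piCore π G
    have h4 := isPSolvable_quotient h (piCore π G)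
    rcases hπ with e | e
    · rw [e, ← pPrimeCore_eq_piCore_compl hp.out]
      exact centralizer_pPrimeCore_le_of_isPSolvable (e ▸ h4) (by rw [pCore_eq_piCore]; exact e ▸ h3)
    · rw [e, compl_compl, ← pCore_eq_piCore]
      exact centralizer_pCore_le_of_isPSolvable (e ▸ h4) (by rw [pPrimeCore_eq_piCore_compl hp.out]; exact e ▸ h3)
  exact (QuotientGroup.eq_one_iff c).1 ((hc.map (QuotientGroup.mk' _)).eq_one
    (isPiElt_of_mem (piCore_isPiSubgroup _ _) (h2 h1)))

theorem mem_coreOf (hπ : π = {p} ∨ π = {p}ᶜ) {H : Subgroup G} (h : IsPSolvable p H) {c : G} (hcH : c ∈ H)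
    (hc : IsPiElt π c) (h1 : ∀ b : G, IsPiElt π ⁅c, b⁆) : c ∈ piCoreOf π H := by
  refine ⟨⟨c, hcH⟩, mem_core hπ h (isPiElt_coe_iff.1 hc) (mem_centralizer_iff.2 fun y hy => ?_), rfl⟩
  obtain ⟨b, rfl⟩ := QuotientGroup.mk'_surjective _ y
  have h2 : IsPiElt π ⁅(⟨c, hcH⟩ : H), b⁆ := isPiElt_coe_iff.1 (h1 b)
  have h3 := h2.map (QuotientGroup.mk' (piCore π H))
  rw [map_commutatorElement] at h3
  refine (commutatorElement_eq_one_iff_mul_comm.1 (h3.eq_one (isPiElt_of_mem (piCore_isPiSubgroup _ _) ?_))).symm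
  exact mul_mem ((piCore_normal _ _).conj_mem _ hy _) (inv_mem hy)

theorem powell [IsSimpleGroup G] (hna : ¬ IsMulCommutative G) (hdvd : p ∣ Nat.card G)
    (h3 : ∀ x y z : G, IsPSolvable p (closure {x, y, z})) : False := by
  classical
  have hex : ∃ n, ∀ a b : G, tw {p} n (closure {a, b}) = ⊥ := by
    have h1 : ∀ x : G × G, ∃ n, tw {p} n (closure {x.1, x.2}) = ⊥ := fun x =>
      exists_tw_eq_bot (by have := h3 x.1 x.2 x.2; rwa [Set.pair_eq_singleton] at this)
    choose f hf using h1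
    obtain ⟨n, hn⟩ := (Set.finite_range f).bddAbove
    exact ⟨n, fun a b => le_bot_iff.1 ((antitone_nat_of_succ_le (f := fun n => tw {p} n (closure {a, b}))
      (fun n => tw_succ_le n _) (hn ⟨(a, b), rfl⟩)).trans (hf (a, b)).le)⟩
  obtain ⟨n, h1, h2⟩ : ∃ n, (¬ ∀ a b : G, tw {p} n (closure {a, b}) = ⊥) ∧
      ∀ a b : G, tw {p} (n + 1) (closure {a, b}) = ⊥ := by
    have h0 : Nat.find hex ≠ 0 := fun e => by
      obtain ⟨a, ha⟩ := exists_ne (1 : G)
      have := Nat.find_spec hex a a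
      rw [e] at this
      exact ha (mem_bot.1 (this.le (subset_closure (by simp))))
    obtain ⟨n, hn⟩ := Nat.exists_eq_succ_of_ne_zero h0
    exact ⟨n, Nat.find_min hex (by omega), by simpa [hn] using Nat.find_spec hex⟩
  obtain ⟨π, hπ, hQ⟩ : ∃ π : Set ℕ, (π = {p} ∨ π = {p}ᶜ) ∧
      ∀ a b : G, IsPiSubgroup π (tw {p} n (closure {a, b})) :=
    ⟨_, (alt_eq n).symm.imp (fun e => by rw [e, compl_compl]) fun e => by rw [e], fun a b => pi_of_gn (h2 a b)⟩
  have hcore : ∀ {H : Subgroup G} {c b : G}, c ∈ piCoreOf π H → b ∈ H → IsPiElt π c ∧ IsPiElt π ⁅c, b⁆ :=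
    fun {H c b} hc hb => ⟨isPiElt_of_mem (piCoreOf_isPiSubgroup π H) hc,
      isPiElt_of_mem (piCoreOf_isPiSubgroup π H) (by
        rw [commutatorElement_def, mul_assoc, mul_assoc, ← mul_assoc b]
        exact mul_mem hc (conj_mem (le_normalizer_piCoreOf π H hb) (inv_mem hc)))⟩
  let D : Subgroup G :=
    { carrier := {c | IsPiElt π c ∧ ∀ b : G, IsPiElt π ⁅c, b⁆}
      one_mem' := ⟨isPiElt_one _, fun b => by simpa using isPiElt_one _⟩
      mul_mem' := by
        intro c d hc hd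
        have key : ∀ b : G, IsPiElt π (c * d) ∧ IsPiElt π ⁅c * d, b⁆ := fun b =>
          hcore (mul_mem (mem_coreOf hπ (h3 c d b) (subset_closure (by simp)) hc.1 hc.2)
            (mem_coreOf hπ (h3 c d b) (subset_closure (by simp)) hd.1 hd.2)) (subset_closure (by simp))
        exact ⟨(key 1).1, fun b => (key b).2⟩
      inv_mem' := by
        intro c hc
        refine ⟨hc.1.inv, fun b => ?_⟩
        rw [show ⁅c⁻¹, b⁆ = c⁻¹ * ⁅c, b⁆⁻¹ * c⁻¹⁻¹ by simp only [commutatorElement_def]; group]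
        exact (hc.2 b).inv.conj _ }
  have hD : D.Normal := ⟨fun c hc g => ⟨hc.1.conj g, fun b => by
    rw [show ⁅g * c * g⁻¹, b⁆ = g * ⁅c, g⁻¹ * b * g⁆ * g⁻¹ by simp only [commutatorElement_def]; group]
    exact (hc.2 _).conj g⟩⟩
  rcases hD.eq_bot_or_eq_top with e | e
  · refine h1 fun a b => eq_bot_iff.2 fun c hc => e.le ?_
    suffices ∀ d : G, IsPiElt π c ∧ IsPiElt π ⁅c, d⁆ from ⟨(this 1).1, fun d => (this d).2⟩
    intro d
    have ha : a ∈ closure {a, b, d} := subset_closure (by simp)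
    have hb : b ∈ closure {a, b, d} := subset_closure (by simp)
    refine hcore (H := closure {a, b, d}) ?_ (subset_closure (by simp))
    have hs := h3 a b d
    generalize closure {a, b, d} = H at ha hb hs
    have e1 : ∀ x y : H, (tw {p} n (closure {x, y})).map H.subtype = tw {p} n (closure {x.1, y.1}) := fun x y => by
      rw [tw_map, map_pair]; rfl
    have hQ' : ∀ x y : H ⧸ piCore π H, IsPiSubgroup π (tw {p} n (closure {x, y})) := fun x y => by
      obtain ⟨x, rfl⟩ := QuotientGroup.mk'_surjective _ x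
      obtain ⟨y, rfl⟩ := QuotientGroup.mk'_surjective _ y
      rw [← map_pair, ← tw_map]
      exact isPiSubgroup_map (isPiSubgroup_map_subtype_iff.1 (e1 x y ▸ hQ _ _)) _
    obtain ⟨c', hc', rfl⟩ := (e1 ⟨a, ha⟩ ⟨b, hb⟩).ge hc
    refine ⟨c', mem_core hπ hs (isPiElt_coe_iff.1 (isPiElt_of_mem (hQ a b) hc)) (le_cent_of_forall hQ'
      (piCore_isPiSubgroup _ _) (QuotientGroup.mk' _ ⟨a, ha⟩) (QuotientGroup.mk' _ ⟨b, hb⟩) ?_ ?_), rfl⟩
    · rcases id hπ with e | e
      · exact Or.inr (isSolvable_of_forall_prime_eq p _ fun q h1 h2 => (e.le (hQ' _ _ q h1 h2) : q ∈ {p}))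
      · exact Or.inl (isSolvable_of_forall_prime_eq p _ fun q h1 h2 => by_contra fun h =>
          piCore_isPiSubgroup _ _ q h1 h2 (e.ge h))
    · rw [← map_pair, ← tw_map]
      exact mem_map_of_mem _ hc'
  have hG : IsPiSubgroup π (⊤ : Subgroup G) := isPiNum_card_of_forall fun x hx => (e.ge hx).1
  rcases id hπ with e1 | e1 <;> rw [e1] at hG
  · have hP : IsPGroup p G := (isPiSubgroup_singleton_iff.1 hG).of_equiv topEquiv
    rcases (inferInstance : (center G).Normal).eq_bot_or_eq_top with e' | e'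
    · exact (nontrivial_iff_ne_bot _).1 hP.center_nontrivial e'
    · exact hna ⟨⟨fun x y => mem_center_iff.1 (e'.ge (mem_top y)) x⟩⟩
  · exact hG p hp.out (by rwa [card_top]) rfl

end CL.Fgs.Pow
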