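/-
Primitive subgroups and primitive pairs (helper1).
-/
import Cfsg.Agent.Loc.Bender
import Cfsg.Agent.Grp.Primitive

set_option autoImplicit false
open Cfsg Subgroup CL.Grp CL.Loc
open scoped commutatorElement Pointwise

namespace CL.Fgs

variable {G : Type*} [Group G] {p q : ℕ}

/-- `M` is the normalizer of each of its nontrivial normal subgroups. -/
def IsPrimSub (M : Subgroup G) : Prop :=
  ∀ N : Subgroup G, N ≤ M → M ≤ normalizer (N : Set G) → N ≠ ⊥ → normalizer (N : Set G) = M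

theorem IsPrimSub.eq_bot_of_isSubnormal [Finite G] {M : Subgroup G} (hprim : IsPrimSub M)
    (hM : M ≠ ⊤) {L : Subgroup G} (hL : L.IsSubnormal) (hLM : L ≤ M) : L = ⊥ := by
  set N : Subgroup G := sSup {K : Subgroup G | K.IsSubnormal ∧ K ≤ M} with hNdef
  have hNs : N.IsSubnormal := isSubnormal_sSup fun U hU => hU.1
  have hNM : N ≤ M := sSup_le fun U hU => hU.2
  have hle : ∀ K : Subgroup G, K.IsSubnormal → K ≤ M → K ≤ N := fun K h1 h2 =>
    le_sSup (show K ∈ {K : Subgroup G | K.IsSubnormal ∧ K ≤ M} from ⟨h1, h2⟩)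
  have hMN : M ≤ normalizer (N : Set G) := by
    rw [le_normalizer_iff_conj_smul_le]
    intro g hg
    exact hle _ (subnIn_top_iff.1 ((subnIn_top_iff.2 hNs).conj (mem_top g)))
      (conj_smul_le_of_mem hNM hg)
  by_contra hne
  have hN : N ≠ ⊥ := fun h => hne (le_bot_iff.1 (h ▸ hle L hL hLM))
  have hNN := hprim N hNM hMN hN
  have hNtop : N ≠ ⊤ := fun h => hM (top_le_iff.1 (h ▸ hNM))
  obtain ⟨K, hK1, hK2, hK3⟩ := (subnIn_top_iff.2 hNs).exists_lt hNtop
  exact absurd (hle K (subnIn_top_iff.1 hK3) (hNN ▸ hK2)) (not_le_of_gt hK1)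

theorem IsPrimSub.inf_fitting_eq_bot [Finite G] {M : Subgroup G} (hprim : IsPrimSub M)
    (hM : M ≠ ⊤) : M ⊓ fittingSubgroup G = ⊥ := by
  refine hprim.eq_bot_of_isSubnormal hM ?_ inf_le_left
  exact (subnIn_of_isNilpotent (fittingSubgroup_isNilpotent G) inf_le_right).isSubnormal_of
    (Subgroup.Normal.isSubnormal inferInstance)

theorem IsPrimSub.centralizer_le {M D : Subgroup G} (hprim : IsPrimSub M) (hD : D ≤ M)
    (hn : M ≤ normalizer (D : Set G)) (hne : D ≠ ⊥) : centralizer (D : Set G) ≤ M :=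
  hprim D hD hn hne ▸ centralizer_le_normalizer _

theorem IsPrimSub.inf_centralizer_pCoreOf {M N : Subgroup G} (hprim : IsPrimSub M)
    (hOp : pCoreOf p M ≠ ⊥) (hMN : M ⊓ N = ⊥) : N ⊓ centralizer (pCoreOf p M : Set G) = ⊥ := by
  rw [← le_bot_iff, ← hMN]
  exact le_inf (inf_le_right.trans (hprim.centralizer_le (pCoreOf_le p M)
    (le_normalizer_pCoreOf p M) hOp)) inf_le_left

theorem IsPrimSub.not_dvd_card [Finite G] [Fact p.Prime] {M N : Subgroup G} [N.Normal]
    (hprim : IsPrimSub M) (hOp : pCoreOf p M ≠ ⊥) (hMN : M ⊓ N = ⊥) : ¬ p ∣ Nat.card N :=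
  fun h => inf_centralizer_ne_bot_of_isPGroup (pCoreOf_isPGroup p M)
    (le_top.trans (normalizer_eq_top N).ge) h (hprim.inf_centralizer_pCoreOf hOp hMN)

theorem IsPrimSub.existsUnique_sylow [Finite G] [hp : Fact p.Prime] {M N : Subgroup G} [N.Normal]
    (hprim : IsPrimSub M) (hOp : pCoreOf p M ≠ ⊥) (hMN : M ⊓ N = ⊥) (q : ℕ) [Fact q.Prime] :
    ∃ Q : Subgroup G, IsSylowIn q Q N ∧ M ≤ normalizer (Q : Set G) ∧
      ∀ Q' : Subgroup G, IsSylowIn q Q' N → M ≤ normalizer (Q' : Set G) → Q' = Q := by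
  have hn : pCoreOf p M ≤ normalizer (N : Set G) := le_top.trans (normalizer_eq_top N).ge
  have hcop : (Nat.card (pCoreOf p M)).Coprime (Nat.card N) :=
    coprime_card_of_isPGroup (pCoreOf_isPGroup p M)
      ((Nat.Prime.coprime_iff_not_dvd hp.out).2 (hprim.not_dvd_card hOp hMN)).symm
  have hs : Group.IsSolvable (pCoreOf p M) ∨ Group.IsSolvable N :=
    Or.inl (isSolvable_of_isPGroup (pCoreOf_isPGroup p M))
  have uniq : ∀ Q Q' : Subgroup G, IsSylowIn q Q N → IsSylowIn q Q' N →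
      pCoreOf p M ≤ normalizer (Q : Set G) → pCoreOf p M ≤ normalizer (Q' : Set G) → Q = Q' := by
    intro Q Q' h1 h2 h3 h4
    obtain ⟨c, hc, hcQ⟩ := IsSylowIn.exists_centralizer_conj_eq hn hcop hs h1 h2 h3 h4
    rw [hprim.inf_centralizer_pCoreOf hOp hMN, mem_bot] at hc
    rw [← hcQ, hc, map_one, one_smul]
  obtain ⟨Q, hQ, hQn⟩ := exists_isSylowIn_le_normalizer q hn hcop hs
  refine ⟨Q, hQ, fun m hm => ?_, fun Q' h1 h2 => uniq Q' Q h1 hQ ((pCoreOf_le p M).trans h2) hQn⟩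
  rw [mem_normalizer_iff_conj_smul_eq]
  refine uniq _ _ (hQ.conj_smul_of_mem_normalizer (by rw [normalizer_eq_top]; trivial)) hQ ?_ hQn
  rw [normalizer_conj_smul, ← conj_smul_eq_of_mem_normalizer (le_normalizer_pCoreOf p M hm)]
  exact pointwise_smul_le_pointwise_smul_iff.2 hQn

theorem IsPrimSub.not_isCoatom [Finite G] [Fact p.Prime] {M N : Subgroup G} [N.Normal]
    (hprim : IsPrimSub M) (hOp : pCoreOf p M ≠ ⊥) (hMN : M ⊓ N = ⊥) {r : ℕ} (hq : q.Prime)
    (hr : r.Prime) (hqr : q ≠ r) (hqN : q ∣ Nat.card N) (hrN : r ∣ Nat.card N) : ¬ IsCoatom M := by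
  intro hM
  have := Fact.mk hq
  obtain ⟨Q, hQ, hQn, -⟩ := hprim.existsUnique_sylow hOp hMN q
  have hQne : ¬ Q ≤ M := by
    intro h
    have h1 : Q = ⊥ := le_bot_iff.1 (hMN ▸ le_inf h hQ.le)
    have h2 := hQ.not_dvd
    rw [h1, relIndex_bot_left] at h2
    exact h2 hqN
  have htop : M ⊔ Q = ⊤ := hM.2 _ (left_lt_sup.2 hQne)
  have hNQ : N ≤ Q := by
    intro n hn
    have h1 : n ∈ ((M ⊔ Q : Subgroup G) : Set G) := by rw [htop]; trivial
    rw [coe_mul_of_left_le_normalizer_right M Q hQn] at h1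
    obtain ⟨m, hm, x, hx, rfl⟩ := h1
    have h2 : m ∈ M ⊓ N := ⟨hm, by simpa using N.mul_mem hn (N.inv_mem (hQ.le hx))⟩
    rw [hMN, mem_bot] at h2
    simpa [h2] using hx
  obtain ⟨k, hk⟩ := IsPGroup.iff_card.1 (hQ.isPGroup.to_le hNQ)
  rw [hk] at hrN
  exact hqr ((Nat.prime_dvd_prime_iff_eq hr hq).1 (hr.dvd_of_dvd_pow hrN)).symm

theorem IsPrimSub.of_inf_fstarOf_ne_bot [Finite G] {M N : Subgroup G} [N.Normal]
    (hprim : IsPrimSub M) (hM : M ≠ ⊤) (hMF : M ⊓ fstarOf N ≠ ⊥) :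
    fittingSubgroup G = ⊥ ∧ fstarOf N = generalizedFittingSubgroup G ∧
      generalizedFittingSubgroup G = layer G ∧
      ∀ K : Subgroup G, K.Normal → K ≠ ⊥ →
        (∀ K' : Subgroup G, K'.Normal → K' ≤ K → K' = ⊥ ∨ K' = K) → K ≤ N := by
  have hNs : N.IsSubnormal := Subgroup.Normal.isSubnormal inferInstance
  have hn : M ≤ normalizer ((M ⊓ fstarOf N : Subgroup G) : Set G) := by
    refine le_trans (le_inf le_normalizer ?_) (inf_normalizer_le_normalizer_inf ..)
    exact (le_top.trans (normalizer_eq_top N).ge).trans (normalizer_le_normalizer_fstarOf N)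
  have hC := hprim.centralizer_le inf_le_left hn hMF
  have key : ∀ X Y : Subgroup G, X.IsSubnormal → fstarOf N ≤ Y → X ≤ centralizer (Y : Set G) →
      X = ⊥ := fun X Y hX hY h => hprim.eq_bot_of_isSubnormal hM hX
    (h.trans ((Subgroup.centralizer_le (show ((M ⊓ fstarOf N : Subgroup G) : Set G) ⊆ Y from
      inf_le_right.trans hY)).trans hC))
  have hF : fittingSubgroup G = ⊥ := by
    by_contra hne
    refine inf_centralizer_ne_bot_of_nilpotent (fittingSubgroup_isNilpotent G) hne ?_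
    rw [← centralizer_fstar_eq]
    exact key _ _ (Subgroup.Normal.isSubnormal inferInstance) (fstarOf_le_fstar hNs) le_rfl
  have hE : generalizedFittingSubgroup G = layer G := by rw [fstar_def, hF, sup_bot_eq]
  refine ⟨hF, le_antisymm (fstarOf_le_fstar hNs) ?_, hE, fun K hK hne hmin => ?_⟩
  · rw [hE, ← subgroupLayer_top, subgroupLayer_le_iff']
    intro K hK
    rcases hK.le_or_commutator_eq_bot (subnIn_top_iff.2 hNs) with h | h
    · exact (hK.of_le h le_top).le_subgroupLayer.trans (subgroupLayer_le_fstarOf N)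
    · exact absurd (key K N (subnIn_top_iff.1 hK.1) (fstarOf_le N)
        (commutator_eq_bot_iff_le_centralizer.1 h)) hK.ne_bot
  · rcases hmin (K ⊓ N) inferInstance inf_le_left with h | h
    · refine absurd (key K N hK.isSubnormal (fstarOf_le N) ?_) hne
      rw [← commutator_eq_bot_iff_le_centralizer, ← le_bot_iff, ← h]
      exact commutator_le_inf K N
    · exact h ▸ inf_le_right

/-- A primitive pair. -/
def IsPrimPair (M₁ M₂ : Subgroup G) : Prop :=
  ∀ A : Subgroup G, A ≠ ⊥ → A ≤ M₁ ⊓ M₂ →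
    (M₁ ≤ normalizer (A : Set G) → M₂ ⊓ normalizer (A : Set G) = M₁ ⊓ M₂) ∧
    (M₂ ≤ normalizer (A : Set G) → M₁ ⊓ normalizer (A : Set G) = M₁ ⊓ M₂)

theorem IsPrimPair.symm {M₁ M₂ : Subgroup G} (h : IsPrimPair M₁ M₂) : IsPrimPair M₂ M₁ :=
  fun A hA hle => by
    rw [inf_comm] at hle
    rw [inf_comm M₂ M₁]
    exact (h A hA hle).symm

theorem IsPrimPair.eq_bot {M₁ M₂ A : Subgroup G} (h : IsPrimPair M₁ M₂) (hne : M₁ ≠ M₂)
    (hA : A ≤ M₁ ⊓ M₂) (h1 : M₁ ≤ normalizer (A : Set G)) (h2 : M₂ ≤ normalizer (A : Set G)) :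
    A = ⊥ := by
  by_contra hb
  obtain ⟨h3, h4⟩ := h A hb hA
  have h5 := h3 h1
  have h6 := h4 h2
  rw [inf_eq_left.2 h2] at h5
  rw [inf_eq_left.2 h1] at h6
  exact hne (h6.trans h5.symm)

theorem IsPrimPair.inf_normalizer_le {M N B : Subgroup G} (h : IsPrimPair M N) (hB : B ≠ ⊥)
    (hBM : B ≤ M) (hBN : B ≤ N) (hn : N ≤ normalizer (B : Set G)) :
    M ⊓ normalizer (B : Set G) ≤ N :=
  ((h B hB (le_inf hBM hBN)).2 hn).le.trans inf_le_right

section Bender
variable [Finite G]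

theorem IsPrimPair.pCoreOf_le [Fact p.Prime] [Fact q.Prime] {M N : Subgroup G}
    (hP : IsPrimPair M N) (hE : subgroupLayer M = ⊥) (hMN : fittingOf M ≤ N)
    (hNM : fittingOf N ≤ M) (hpq : p ≠ q) (hq : pCoreOf q N ≠ ⊥) : pCoreOf p N ≤ pCoreOf p M := by
  set A := pCoreOf p N
  set B := pCoreOf q N
  have hF := fittingOf_isNilpotent (M ⊓ N)
  have hFM : fittingOf M ≤ fittingOf (M ⊓ N) := le_fittingOf (le_inf (fittingOf_le M) hMN)
    (inf_le_left.trans (le_normalizer_fittingOf M)) (fittingOf_isNilpotent M)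
  have hFN : fittingOf N ≤ fittingOf (M ⊓ N) := le_fittingOf (le_inf hNM (fittingOf_le N))
    (inf_le_right.trans (le_normalizer_fittingOf N)) (fittingOf_isNilpotent N)
  have hAM : A ≤ M := (pCoreOf_le_fittingOf p N).trans hNM
  have hBM : B ≤ M := (pCoreOf_le_fittingOf q N).trans hNM
  have hcomm : ∀ (r s : ℕ) [Fact r.Prime] [Fact s.Prime], r ≠ s →
      pCoreOf r N ≤ centralizer (pCoreOf s M : Set G) := fun r s _ _ hrs =>
    commutator_eq_bot_iff_le_centralizer.mp (commutator_eq_bot_of_le_nilpotent hrs hF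
      (pCoreOf_isPGroup r N) (pCoreOf_isPGroup s M) ((pCoreOf_le_fittingOf r N).trans hFN)
      ((pCoreOf_le_fittingOf s M).trans hFM))
  have hnC : ∀ s : ℕ, M ≤ normalizer (centralizer (pCoreOf s M : Set G) : Set G) := fun s =>
    le_normalizer_centralizer' (le_normalizer_pCoreOf s M)
  have key : ∀ m ∈ M, MulAut.conj m • A ≤ N := by
    intro m hm
    set A' := MulAut.conj m • A
    have hA'M : A' ≤ M := conj_smul_le_of_mem hAM hm
    have hA'p : IsPGroup p A' := IsPGroup.conj_smul (pCoreOf_isPGroup p N) m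
    have hA'c : ∀ (s : ℕ) [Fact s.Prime], p ≠ s → A' ≤ centralizer (pCoreOf s M : Set G) :=
      fun s _ hs => conj_smul_le_of_mem_normalizer (hcomm p s hs) (hnC s hm)
    have h1 : ⁅B, A'⁆ ≤ fittingOf M := by
      refine le_fittingOf_of_centralizes ((commutator_mono hBM hA'M).trans (commutator_le_self M))
        (by rw [hE]; exact bot_le) (fittingOf_le_of_forall_pCoreOf_le fun s _ => ?_)
      rw [le_centralizer_iff]
      by_cases hs : p = s
      · subst hs
        exact (commutator_mono (hcomm q p hpq.symm) hA'M).trans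
          (le_normalizer_iff_commutator_le_left.mp (hnC p))
      · exact (commutator_mono hBM (hA'c s hs)).trans
          (le_normalizer_iff_commutator_le_right.mp (hnC s))
    have h2 : ⁅B ⊔ fittingOf M, A'⁆ ≤ fittingOf M := commutator_sup_le_of_normalizes h1
      (le_normalizer_iff_commutator_le_left.mp (hA'M.trans (le_normalizer_fittingOf M)))
      (hBM.trans (le_normalizer_fittingOf M)) le_normalizer
    have hT : Group.IsNilpotent ↥(B ⊔ fittingOf M) :=
      isNilpotent_of_le hF (sup_le ((pCoreOf_le_fittingOf q N).trans hFN) hFM)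
    set D := pCoreOf q (B ⊔ fittingOf M)
    have hDn : A' ≤ normalizer (D : Set G) :=
      (le_normalizer_iff_commutator_le_left.mpr (h2.trans le_sup_right)).trans
        (normalizer_le_normalizer_pCoreOf q _)
    have h3 : ⁅D, A'⁆ ≤ pCoreOf q M := le_pCoreOf_of_le_fittingOf
      ((pCoreOf_isPGroup q _).to_le (le_normalizer_iff_commutator_le_left.mp hDn))
      ((commutator_mono (CL.Grp.pCoreOf_le q _) le_rfl).trans h2)
    have h4 : ⁅D, A'⁆ = ⊥ := by
      refine commutator_eq_bot_of_commutator_commutator_eq_bot hDn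
        (IsPGroup.coprime_card_of_ne p q hpq _ _ hA'p (pCoreOf_isPGroup q _))
        (Or.inl (isSolvable_of_isPGroup hA'p)) ?_
      rw [← le_bot_iff]
      refine (commutator_mono h3 le_rfl).trans (le_of_eq ?_)
      rw [commutator_comm, commutator_eq_bot_iff_le_centralizer]
      exact hA'c q hpq
    have hBD : B ≤ D := le_pCoreOf_of_isNilpotent hT (pCoreOf_isPGroup q N) le_sup_left
    refine le_trans (le_inf hA'M ?_) (hP.inf_normalizer_le hq hBM (CL.Grp.pCoreOf_le q N)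
      (le_normalizer_pCoreOf q N))
    refine le_trans ?_ (centralizer_le_normalizer _)
    rw [le_centralizer_iff]
    exact hBD.trans (commutator_eq_bot_iff_le_centralizer.mp h4)
  let W : Subgroup G := ⨆ m : M, MulAut.conj (m : G) • A
  have hAW : A ≤ W := le_trans (by simp) (le_iSup (fun m : M => MulAut.conj (m : G) • A) 1)
  have hWN : W ≤ N := iSup_le fun m => key m m.2
  have hWM : W ≤ M := iSup_le fun m => conj_smul_le_of_mem hAM m.2
  have hWn : M ≤ normalizer (W : Set G) := by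
    rw [le_normalizer_iff_conj_smul_le]
    intro g hg
    rw [conj_smul_eq_map, Subgroup.map_iSup]
    refine iSup_le fun m => ?_
    rw [← conj_smul_eq_map, conj_smul_conj_smul]
    exact le_iSup (fun m : M => MulAut.conj (m : G) • A) ⟨g * m, M.mul_mem hg m.2⟩
  exact le_pCoreOf_of_subnIn ((SubnIn.of_le_normalizer hAW
    (hWN.trans (le_normalizer_pCoreOf p N))).trans (SubnIn.of_le_normalizer hWM hWn))
    (pCoreOf_isPGroup p N)

/-- If `F*(M) ≤ D ≤ M` then `E(D) = E(M)`. -/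
theorem subgroupLayer_eq_of_fstarOf_le {M D : Subgroup G} (h1 : fstarOf M ≤ D) (h2 : D ≤ M) :
    subgroupLayer D = subgroupLayer M := by
  refine le_antisymm ?_ (subgroupLayer_le_of_le ((subgroupLayer_le_fstarOf M).trans h1) h2)
  rw [subgroupLayer_le_iff']
  intro K hK
  have hn : M ≤ normalizer (fstarOf M : Set G) := le_normalizer_fstarOf M
  rcases hK.le_or_commutator_eq_bot_of_le_normalizer h1 ((hK.le.trans h2).trans hn) with h | h
  · exact ((hK.of_le h h1).trans (SubnIn.of_le_normalizer (fstarOf_le M) hn)).le_subgroupLayer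
  · exfalso
    have h3 : K ≤ fittingOf M := le_trans (le_inf (hK.le.trans h2)
      (commutator_eq_bot_iff_le_centralizer.1 h)) (inf_centralizer_fstarOf_le M)
    exact hK.ne_bot (eq_bot_of_le_commutator (isNilpotent_of_le (fittingOf_isNilpotent M) h3)
      le_rfl hK.commutator_self.ge)

theorem pCoreOf_eq_bot_of_fstarOf_le [Fact q.Prime] {M N : Subgroup G}
    (hE : subgroupLayer M = ⊥) (hMN : fittingOf M ≤ N) (hNM : fittingOf N ≤ M)
    (hq : pCoreOf q M = ⊥) : pCoreOf q N = ⊥ := by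
  have hF := fittingOf_isNilpotent (M ⊓ N)
  have hFM : fittingOf M ≤ fittingOf (M ⊓ N) := le_fittingOf (le_inf (fittingOf_le M) hMN)
    (inf_le_left.trans (le_normalizer_fittingOf M)) (fittingOf_isNilpotent M)
  have hFN : fittingOf N ≤ fittingOf (M ⊓ N) := le_fittingOf (le_inf hNM (fittingOf_le N))
    (inf_le_right.trans (le_normalizer_fittingOf N)) (fittingOf_isNilpotent N)
  rw [← le_bot_iff, ← hq]
  refine le_pCoreOf_of_le_fittingOf (pCoreOf_isPGroup q N) (le_fittingOf_of_centralizes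
    ((pCoreOf_le_fittingOf q N).trans hNM) (by rw [hE]; exact bot_le)
    (fittingOf_le_of_forall_pCoreOf_le fun s _ => ?_))
  by_cases hs : s = q
  · subst hs; rw [hq]; exact bot_le
  · exact commutator_eq_bot_iff_le_centralizer.mp (commutator_eq_bot_of_le_nilpotent hs hF
      (pCoreOf_isPGroup s M) (pCoreOf_isPGroup q N) ((pCoreOf_le_fittingOf s M).trans hFM)
      ((pCoreOf_le_fittingOf q N).trans hFN))

/-- Bender's theorem for primitive pairs. -/
theorem IsPrimPair.bender {M N : Subgroup G} (hP : IsPrimPair M N) (hne : M ≠ N)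
    (h₁ : fstarOf M ≤ N) (h₂ : fstarOf N ≤ M) :
    ∃ p : ℕ, p.Prime ∧ centralizer (pCore p M : Set M) ≤ pCore p M ∧
      centralizer (pCore p N : Set N) ≤ pCore p N ∧ pCoreOf p M ⊔ pCoreOf p N ≤ M ⊓ N := by
  have hEM := subgroupLayer_eq_of_fstarOf_le (le_inf (fstarOf_le M) h₁) (inf_le_left (b := N))
  have hEN := subgroupLayer_eq_of_fstarOf_le (le_inf h₂ (fstarOf_le N)) (inf_le_right (a := M))
  have hE : subgroupLayer (M ⊓ N) = ⊥ := hP.eq_bot hne (subgroupLayer_le _)
    (hEM ▸ le_normalizer_subgroupLayer M) (hEN ▸ le_normalizer_subgroupLayer N)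
  rw [hE] at hEM hEN
  have h1 : fittingOf M ≤ N := (fittingOf_le_fstarOf M).trans h₁
  have h2 : fittingOf N ≤ M := (fittingOf_le_fstarOf N).trans h₂
  have hMN : ∀ (s : ℕ) [Fact s.Prime], pCoreOf s M = ⊥ ↔ pCoreOf s N = ⊥ := fun s _ =>
    ⟨pCoreOf_eq_bot_of_fstarOf_le hEM.symm h1 h2, pCoreOf_eq_bot_of_fstarOf_le hEN.symm h2 h1⟩
  obtain ⟨p, hp, hpM⟩ : ∃ p : ℕ, p.Prime ∧ ∀ (q : ℕ) [Fact q.Prime], p ≠ q → pCoreOf q M = ⊥ := by
    by_cases hex : ∃ p : ℕ, p.Prime ∧ pCoreOf p M ≠ ⊥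
    · obtain ⟨p, hp, hpM⟩ := hex
      have := Fact.mk hp
      refine ⟨p, hp, fun q _ hpq => ?_⟩
      by_contra hqM
      have hqN : pCoreOf q N ≠ ⊥ := fun h => hqM ((hMN q).2 h)
      have h3 : pCoreOf p M = pCoreOf p N :=
        le_antisymm (hP.symm.pCoreOf_le hEN.symm h2 h1 hpq hqM)
          (hP.pCoreOf_le hEM.symm h1 h2 hpq hqN)
      exact hpM (hP.eq_bot hne (le_inf (CL.Grp.pCoreOf_le p M) (h3 ▸ CL.Grp.pCoreOf_le p N))
        (le_normalizer_pCoreOf p M) (h3 ▸ le_normalizer_pCoreOf p N))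
    · refine ⟨2, Nat.prime_two, fun q hq _ => ?_⟩
      by_contra hne
      exact hex ⟨q, hq.out, hne⟩
  have := Fact.mk hp
  have fin : ∀ X : Subgroup G, subgroupLayer X = ⊥ →
      (∀ (q : ℕ) [Fact q.Prime], p ≠ q → pCoreOf q X = ⊥) →
      centralizer (pCore p X : Set X) ≤ pCore p X := by
    intro X h1 h2
    have h3 : fstarOf X ≤ pCoreOf p X := by
      rw [fstarOf_eq, h1, bot_sup_eq]
      refine fittingOf_le_of_forall_pCoreOf_le fun q _ => ?_
      by_cases hpq : p = q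
      · subst hpq; exact le_rfl
      · rw [h2 q hpq]; exact bot_le
    rw [centralizer_pCore_le_iff_inf]
    refine le_trans (inf_le_inf_left _ (centralizer_le h3)) ?_
    exact (inf_centralizer_fstarOf_le X).trans ((fittingOf_le_fstarOf X).trans h3)
  refine ⟨p, hp, fin M hEM.symm hpM, fin N hEN.symm fun q _ hpq => (hMN q).1 (hpM q hpq), ?_⟩
  exact sup_le (le_inf (CL.Grp.pCoreOf_le p M) ((pCoreOf_le_fittingOf p M).trans h1))
    (le_inf ((pCoreOf_le_fittingOf p N).trans h2) (CL.Grp.pCoreOf_le p N))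

end Bender

end CL.Fgs
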