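/-
Maximal `p`-local subgroups: primitive pairs versus strong embedding; primitive pairs of
characteristic `p` have a non-abelian Sylow `2`-subgroup (helper1).
-/
import Cfsg.Agent.Fgs.PrimPair
import Cfsg.Agent.Loc.KinfRed
import Cfsg.Agent.Loc.KinfWeak
import Cfsg.Agent.Loc.QuadDickson
import Cfsg.Agent.Loc.QuadStab2

set_option autoImplicit false
open Cfsg Subgroup CL.Grp CL.Loc
open scoped commutatorElement Pointwise

namespace CL.Fgs

universe u

section MaxLocal
variable {G : Type*} [Group G] [Finite G] {p : ℕ} [Fact p.Prime]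

omit [Fact p.Prime] in
theorem exists_maxPLocal_ge {T : Subgroup G} (hT : IsPGroup p T) (hne : T ≠ ⊥) :
    ∃ M, IsMaximalPLocal p M ∧ normalizer (T : Set G) ≤ M := by
  obtain ⟨M, hLM, hM, hmax⟩ := (Set.toFinite {M : Subgroup G | IsPLocal p M}).exists_le_maximal
    (show normalizer (T : Set G) ∈ {M : Subgroup G | IsPLocal p M} from ⟨T, hT, hne, rfl⟩)
  exact ⟨M, ⟨hM, fun N hN h => le_antisymm (hmax hN h) h⟩, hLM⟩

omit [Finite G] [Fact p.Prime] in
theorem maxPLocal_normalizer_eq {M T : Subgroup G} (hM : IsMaximalPLocal p M) (hT : IsPGroup p T)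
    (hne : T ≠ ⊥) (hn : M ≤ normalizer (T : Set G)) : normalizer (T : Set G) = M :=
  hM.2 _ ⟨T, hT, hne, rfl⟩ hn

omit [Finite G] [Fact p.Prime] in
theorem pLocal_pCoreOf_ne_bot {M : Subgroup G} (hM : IsPLocal p M) : pCoreOf p M ≠ ⊥ := by
  obtain ⟨T, hT, hne, rfl⟩ := hM
  exact fun h => hne (le_bot_iff.1 (h ▸ le_pCoreOf le_normalizer le_rfl hT))

omit [Finite G] [Fact p.Prime] in
theorem maxPLocal_normalizer_le {M : Subgroup G} (hM : IsMaximalPLocal p M) :
    normalizer (M : Set G) ≤ M :=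
  (normalizer_le_normalizer_pCoreOf p M).trans (maxPLocal_normalizer_eq hM (pCoreOf_isPGroup p M)
    (pLocal_pCoreOf_ne_bot hM.1) (le_normalizer_pCoreOf p M)).le

omit [Finite G] [Fact p.Prime] in
theorem pLocal_conj_smul {M : Subgroup G} (hM : IsPLocal p M) (g : G) :
    IsPLocal p (MulAut.conj g • M) := by
  obtain ⟨T, hT, hne, rfl⟩ := hM
  refine ⟨MulAut.conj g • T, IsPGroup.conj_smul hT g, fun h => hne ?_,
    (normalizer_conj_smul g T).symm⟩
  rw [← smul_bot (MulAut.conj g)] at h
  exact MulAction.injective _ h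

omit [Finite G] [Fact p.Prime] in
theorem maxPLocal_conj_smul {M : Subgroup G} (hM : IsMaximalPLocal p M) (g : G) :
    IsMaximalPLocal p (MulAut.conj g • M) := by
  refine ⟨pLocal_conj_smul hM.1 g, fun N hN h => ?_⟩
  have h1 := hM.2 _ (pLocal_conj_smul hN g⁻¹) (by
    rw [map_inv, ← pointwise_smul_subset_iff]; exact h)
  rw [← h1, conj_smul_conj_smul, mul_inv_cancel, map_one, one_smul]

/-- If maximal `p`-local subgroups with a common Sylow `p`-subgroup coincide, then so do maximal
`p`-local subgroups whose intersection has order divisible by `p`. -/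
theorem maxPLocal_eq_of_common_sylow
    (h : ∀ M N S : Subgroup G, IsMaximalPLocal p M → IsMaximalPLocal p N → IsSylowIn p S M →
      IsSylowIn p S N → M = N) {D : Subgroup G} (hD : IsPGroup p D) (hne : D ≠ ⊥)
    {M N : Subgroup G} (hM : IsMaximalPLocal p M) (hN : IsMaximalPLocal p N) (hDM : D ≤ M)
    (hDN : D ≤ N) : M = N := by
  have syl : ∀ S X : Subgroup G, IsMaximalPLocal p X → IsSylowIn p S X → IsSylowIn p S ⊤ := by
    intro S X hX hS
    refine isSylowIn_of_maximal le_top hS.isPGroup fun U hU hSU _ => ?_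
    by_contra hne
    have h1 := lt_inf_normalizer_of_isPGroup hU (lt_of_le_of_ne hSU (Ne.symm hne))
    refine h1.ne' (hS.eq_of_le (hU.to_inf_left) h1.le fun g hg => maxPLocal_normalizer_le hX ?_)
    rw [mem_normalizer_iff_conj_smul_eq]
    refine h _ _ S (maxPLocal_conj_smul hX g) hX ?_ hS
    have h2 := hS.conj_smul g
    rwa [conj_smul_eq_of_mem_normalizer hg.2] at h2
  induction D using WellFoundedGT.induction generalizing M N with
  | ind D ih =>
  by_cases hs : IsSylowIn p D M ∨ IsSylowIn p D N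
  · have h1 : IsSylowIn p D ⊤ := hs.elim (syl D M hM) (syl D N hN)
    exact h M N D hM hN (h1.of_le hDM le_top) (h1.of_le hDN le_top)
  obtain ⟨L, hL, hDL⟩ := exists_maxPLocal_ge hD hne
  have step : ∀ X : Subgroup G, IsMaximalPLocal p X → D ≤ X → ¬ IsSylowIn p D X → X = L := by
    intro X hX hDX hns
    obtain ⟨S, hS, hDS⟩ := exists_isSylowIn_ge hD hDX
    have h1 := lt_inf_normalizer_of_isPGroup hS.isPGroup
      (lt_of_le_of_ne hDS (fun h => hns (h ▸ hS)))
    exact ih _ h1 hS.isPGroup.to_inf_left (fun h => not_lt_bot (h ▸ h1)) hX hL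
      (inf_le_left.trans hS.le) (inf_le_right.trans hDL)
  exact (step M hM hDM fun h => hs (Or.inl h)).trans (step N hN hDN fun h => hs (Or.inr h)).symm

theorem stronglyEmb_of_common_sylow (hO : pCore p G = ⊥)
    (h : ∀ M N S : Subgroup G, IsMaximalPLocal p M → IsMaximalPLocal p N → IsSylowIn p S M →
      IsSylowIn p S N → M = N) {M : Subgroup G} (hM : IsMaximalPLocal p M) :
    M ≠ ⊤ ∧ p ∣ Nat.card M ∧
      ∀ g : G, g ∉ M → ¬ p ∣ Nat.card ↥(M ⊓ M.map (MulAut.conj g).toMonoidHom) := by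
  have hne := pLocal_pCoreOf_ne_bot hM.1
  refine ⟨fun ht => hne (by rw [ht, pCoreOf_top, hO]), ?_, fun g hg hd => hg ?_⟩
  · refine dvd_trans ?_ (card_dvd_of_le (pCoreOf_le p M))
    obtain ⟨k, hk⟩ := IsPGroup.iff_card.1 (pCoreOf_isPGroup p M)
    rw [hk]
    refine dvd_pow_self p fun h0 => hne ?_
    rw [h0, pow_zero] at hk
    exact eq_bot_of_card_eq _ hk
  · rw [← conj_smul_eq_map] at hd
    obtain ⟨S, hS⟩ := exists_isSylowIn (p := p) (M ⊓ MulAut.conj g • M)
    have hSne : S ≠ ⊥ := by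
      intro hb
      have h2 := hS.not_dvd
      rw [hb, relIndex_bot_left] at h2
      exact h2 hd
    refine maxPLocal_normalizer_le hM ?_
    rw [mem_normalizer_iff_conj_smul_eq]
    exact maxPLocal_eq_of_common_sylow h hS.isPGroup hSne (maxPLocal_conj_smul hM g) hM
      (hS.le.trans inf_le_right) (hS.le.trans inf_le_left)

omit [Finite G] [Fact p.Prime] in
/-- A maximal `p`-local subgroup of characteristic `p` is primitive. -/
theorem maxPLocal_isPrimSub {M : Subgroup G} (hM : IsMaximalPLocal p M)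
    (hc : M ⊓ centralizer (pCoreOf p M : Set G) ≤ pCoreOf p M) : IsPrimSub M := by
  intro A hAM hn hA
  have h1 : pCoreOf p A ≠ ⊥ := by
    intro hb
    have h2 : A ⊓ pCoreOf p M ≤ pCoreOf p A := by
      rw [inf_comm]; exact pCoreOf_inf_le hAM
    have h3 : A ≤ pCoreOf p M := by
      refine le_trans (le_inf hAM ?_) hc
      rw [← commutator_eq_bot_iff_le_centralizer, ← le_bot_iff, ← hb]
      refine le_trans (le_inf ?_ ?_) h2
      · exact le_normalizer_iff_commutator_le_left.1 ((pCoreOf_le p M).trans hn)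
      · exact le_normalizer_iff_commutator_le_right.1 (hAM.trans (le_normalizer_pCoreOf p M))
    exact hA (le_bot_iff.1 (hb ▸ (le_inf le_rfl h3).trans h2))
  refine le_antisymm ((normalizer_le_normalizer_pCoreOf p A).trans ?_) hn
  exact (maxPLocal_normalizer_eq hM (pCoreOf_isPGroup p A) h1
    (hn.trans (normalizer_le_normalizer_pCoreOf p A))).le

omit [Finite G] [Fact p.Prime] in
theorem isPrimPair_of_isPrimSub {M N : Subgroup G} (hM : IsPrimSub M) (hN : IsPrimSub N) :
    IsPrimPair M N := fun A hA hle =>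
  ⟨fun h => by rw [hM A (hle.trans inf_le_left) h hA, inf_comm],
    fun h => by rw [hN A (hle.trans inf_le_right) h hA]⟩

end MaxLocal

section Stable
variable {G : Type u} [Group G] [Finite G] {p : ℕ} [Fact p.Prime]

theorem le_normalizer_kInf_of_abelian_two (h2 : p ≠ 2) {M S : Subgroup G}
    (hc : centralizer (pCore p M : Set M) ≤ pCore p M) (T : Sylow 2 M)
    (hT : IsMulCommutative (T : Subgroup M)) (hS : IsPGroup p S) (hSM : S ≤ M)
    (hO : pCoreOf p M ≤ S) : M ≤ normalizer (inducedFunctor kInfLower S : Set G) := by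
  rw [← normal_inducedFunctor_subgroupOf_iff (isCharPFunctor_kInfLower p) hS hSM]
  refine (kInf_normal_of_pStable hc (fun N _ => isNormalizerPStable_of_not_involves_qd
    (dicksonSL2 h2) h2 fun h => not_involves_qd_of_abelian_sylow_two h2 T hT
      (involves_trans h (involves_quotient N))) ?_).1
  rw [← pCoreOf_subgroupOf]
  exact comap_mono hO

omit [Finite G] [Fact p.Prime] in
theorem le_pCoreOf_of_abelian_sylow {M Q : Subgroup G}
    (hc : centralizer (pCore p M : Set M) ≤ pCore p M)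
    (hab : ∀ T : Sylow p M, IsMulCommutative (T : Subgroup M)) (hQ : IsPGroup p Q)
    (hQM : Q ≤ M) : Q ≤ pCoreOf p M := by
  obtain ⟨T, hT⟩ := (hQ.comap_subtype (K := M)).exists_le_sylow
  have h1 : Q.subgroupOf M ≤ pCore p M := by
    refine le_trans (hT.trans ?_) hc
    exact (le_centralizer_iff_isMulCommutative.2 (hab T)).trans
      (Subgroup.centralizer_le (pCore_le_sylow T))
  rw [← map_subgroupOf_eq_of_le hQM]
  exact map_mono h1

theorem IsPrimPair.not_abelian_two {M N : Subgroup G} (hP : IsPrimPair M N) (hne : M ≠ N)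
    (hM : centralizer (pCore p M : Set M) ≤ pCore p M)
    (hN : centralizer (pCore p N : Set N) ≤ pCore p N)
    (hO : pCoreOf p M ⊔ pCoreOf p N ≤ M ⊓ N) :
    (∃ S : Sylow 2 M, ¬ IsMulCommutative (S : Subgroup M)) ∨
      (∃ S : Sylow 2 N, ¬ IsMulCommutative (S : Subgroup N)) := by
  by_contra hcon
  push Not at hcon
  obtain ⟨h1, h2⟩ := hcon
  have hbot : pCoreOf p M ⊔ pCoreOf p N ≠ ⊥ := by
    intro h
    have aux : ∀ X : Subgroup G, centralizer (pCore p X : Set X) ≤ pCore p X →
        pCoreOf p X = ⊥ → X = ⊥ := fun X hX hb => by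
      rw [centralizer_pCore_le_iff_inf, hb] at hX
      refine le_bot_iff.1 (le_trans (le_inf le_rfl ?_) hX)
      rw [le_centralizer_iff]; exact bot_le
    exact hne ((aux M hM (sup_eq_bot_iff.1 h).1).trans (aux N hN (sup_eq_bot_iff.1 h).2).symm)
  have hNM : pCoreOf p N ≤ M := (le_sup_right.trans hO).trans inf_le_left
  have hMN : pCoreOf p M ≤ N := (le_sup_left.trans hO).trans inf_le_right
  by_cases hp : p = 2
  · subst hp
    have h3 : pCoreOf 2 M = pCoreOf 2 N :=
      le_antisymm (le_pCoreOf_of_abelian_sylow hN h2 (pCoreOf_isPGroup 2 M) hMN)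
        (le_pCoreOf_of_abelian_sylow hM h1 (pCoreOf_isPGroup 2 N) hNM)
    refine hbot (hP.eq_bot hne hO ?_ ?_)
    · rw [← h3, sup_idem]; exact le_normalizer_pCoreOf 2 M
    · rw [h3, sup_idem]; exact le_normalizer_pCoreOf 2 N
  · have hS : IsPGroup p ↥(pCoreOf p M ⊔ pCoreOf p N) :=
      IsPGroup.to_sup_of_normal_left' (pCoreOf_isPGroup p M) (pCoreOf_isPGroup p N)
        (hNM.trans (le_normalizer_pCoreOf p M))
    obtain ⟨T₁⟩ : Nonempty (Sylow 2 M) := inferInstance
    obtain ⟨T₂⟩ : Nonempty (Sylow 2 N) := inferInstance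
    have h3 := hP.eq_bot hne ((inducedFunctor_le kInfLower _).trans hO)
      (le_normalizer_kInf_of_abelian_two hp hM T₁ (h1 T₁) hS (hO.trans inf_le_left) le_sup_left)
      (le_normalizer_kInf_of_abelian_two hp hN T₂ (h2 T₂) hS (hO.trans inf_le_right) le_sup_right)
    refine inf_centralizer_ne_bot_of_nilpotent hS.isNilpotent hbot ?_
    rw [← le_bot_iff, ← h3]
    exact inf_centralizer_le_induced_kInfLower _

end Stable

end CL.Fgs
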