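/-
Metacyclic groups `⟨a, b | a ^ m = 1, b ^ n = a ^ t, b a b⁻¹ = a ^ r⟩`: order, existence, uniqueness and the
Schur multiplier.
-/
import Cfsg.Agent.Fgs.SchurCover2

set_option autoImplicit false

namespace CL.Schur

open Cfsg Subgroup
open scoped commutatorElement IsMulCommutative

universe u v w

/-- `a, b` generate `G` and satisfy the metacyclic relations. -/
structure IsMC {G : Type u} [Group G] (a b : G) (m n r t : ℕ) : Prop where
  pow_a : a ^ m = 1
  pow_b : b ^ n = a ^ t
  conj : b * a * b⁻¹ = a ^ r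
  gen : closure ({a, b} : Set G) = ⊤

section
variable {G : Type u} [Group G]

theorem eq_top_of_mem_pair {a b : G} (gen : closure ({a, b} : Set G) = ⊤) {H : Subgroup G}
    (ha : a ∈ H) (hb : b ∈ H) : H = ⊤ := by
  rw [eq_top_iff, ← gen, closure_le]
  rintro x (rfl | rfl)
  exacts [ha, hb]

theorem zpowers_normal_of_conj {a b c : G} (hc : IsOfFinOrder c)
    (gen : closure ({a, b} : Set G) = ⊤) (ha : a * c * a⁻¹ ∈ zpowers c)
    (hb : b * c * b⁻¹ ∈ zpowers c) : (zpowers c).Normal := by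
  have : Finite (zpowers c : Set G) := hc.finite_zpowers
  have key : ∀ x : G, x * c * x⁻¹ ∈ zpowers c → x ∈ normalizer (zpowers c : Set G) := by
    intro x hx
    apply mem_normalizer_fintype
    rintro _ ⟨k, rfl⟩
    show x * c ^ k * x⁻¹ ∈ zpowers c
    rw [← conj_zpow]
    exact zpow_mem hx k
  exact normalizer_eq_top_iff.1 (eq_top_of_mem_pair gen (key a ha) (key b hb))

theorem commutator_le_of_pair {a b : G} (gen : closure ({a, b} : Set G) = ⊤) (N : Subgroup G)
    [N.Normal] (h : ⁅b, a⁆ ∈ N) : _root_.commutator G ≤ N := by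
  rw [← Subgroup.Normal.quotient_commutative_iff_commutator_le]
  have h1 : Commute (b : G ⧸ N) (a : G ⧸ N) := by
    rw [← commutatorElement_eq_one_iff_commute]
    exact (map_commutatorElement (QuotientGroup.mk' N) b a).symm.trans
      ((QuotientGroup.eq_one_iff _).2 h)
  have h2 : ∀ y : G ⧸ N, Commute y a → Commute y b → ∀ x : G ⧸ N, Commute y x := by
    intro y ha hb x
    obtain ⟨x, rfl⟩ := QuotientGroup.mk_surjective x
    have := eq_top_of_mem_pair gen (H := (centralizer {y}).comap (QuotientGroup.mk' N))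
      (mem_centralizer_singleton_iff.2 ha.symm) (mem_centralizer_singleton_iff.2 hb.symm)
    have hx : x ∈ (centralizer {y}).comap (QuotientGroup.mk' N) := this ▸ mem_top x
    exact (mem_centralizer_singleton_iff.1 hx).symm
  exact ⟨⟨fun x y => h2 x (h2 a rfl h1.symm x).symm (h2 b h1 rfl x).symm y⟩⟩

namespace IsMC
variable {a b : G} {m n r t : ℕ}

theorem isOfFinOrder_a (h : IsMC a b m n r t) (hm : 0 < m) : IsOfFinOrder a :=
  isOfFinOrder_iff_pow_eq_one.2 ⟨m, hm, h.pow_a⟩

theorem normal (h : IsMC a b m n r t) (hm : 0 < m) : (zpowers a).Normal :=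
  zpowers_normal_of_conj (h.isOfFinOrder_a hm) h.gen (by simp) (h.conj ▸ npow_mem_zpowers a r)

theorem map {H : Type v} [Group H] (h : IsMC a b m n r t) (f : G →* H) (hf : Function.Surjective f) :
    IsMC (f a) (f b) m n r t where
  pow_a := by rw [← map_pow, h.pow_a, map_one]
  pow_b := by rw [← map_pow, h.pow_b, map_pow]
  conj := by rw [← map_inv, ← map_mul, ← map_mul, h.conj, map_pow]
  gen := by
    rw [← Set.image_pair, ← MonoidHom.map_closure, h.gen, map_top_of_surjective f hf]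

theorem card_eq (h : IsMC a b m n r t) [(zpowers a).Normal] :
    Nat.card G = orderOf (b : G ⧸ zpowers a) * orderOf a := by
  rw [card_eq_card_quotient_mul_card_subgroup (zpowers a), Nat.card_zpowers]
  congr 1
  symm
  apply orderOf_eq_card_of_forall_mem_zpowers
  intro x
  obtain ⟨x, rfl⟩ := QuotientGroup.mk_surjective x
  have := eq_top_of_mem_pair h.gen
    (H := (zpowers (b : G ⧸ zpowers a)).comap (QuotientGroup.mk' _))
    (by rw [mem_comap, QuotientGroup.mk'_apply, (QuotientGroup.eq_one_iff a).2 (mem_zpowers a)]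
        exact one_mem _) (mem_zpowers _)
  have hx : x ∈ (zpowers (b : G ⧸ zpowers a)).comap (QuotientGroup.mk' _) := this ▸ mem_top x
  exact hx

theorem mk_b_pow (h : IsMC a b m n r t) [(zpowers a).Normal] : (b : G ⧸ zpowers a) ^ n = 1 := by
  rw [← QuotientGroup.mk_pow, h.pow_b, QuotientGroup.eq_one_iff]
  exact npow_mem_zpowers a t

theorem finite (h : IsMC a b m n r t) (hm : 0 < m) (hn : 0 < n) : Finite G := by
  have := h.normal hm
  apply Nat.finite_of_card_ne_zero
  rw [h.card_eq]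
  exact mul_ne_zero (isOfFinOrder_iff_pow_eq_one.2 ⟨n, hn, h.mk_b_pow⟩).orderOf_pos.ne'
    (h.isOfFinOrder_a hm).orderOf_pos.ne'

theorem card_le (h : IsMC a b m n r t) (hm : 0 < m) (hn : 0 < n) : Nat.card G ≤ n * m := by
  have := h.normal hm
  rw [h.card_eq]
  exact Nat.mul_le_mul (orderOf_le_of_pow_eq_one hn h.mk_b_pow) (orderOf_le_of_pow_eq_one hm h.pow_a)

theorem orderOf_a (h : IsMC a b m n r t) (hm : 0 < m) (hn : 0 < n) (hc : Nat.card G = n * m) :
    orderOf a = m := by
  have := h.normal hm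
  rw [h.card_eq] at hc
  have h1 := orderOf_le_of_pow_eq_one hn h.mk_b_pow
  have h2 := orderOf_le_of_pow_eq_one hm h.pow_a
  by_contra hne
  have h3 : orderOf a < m := lt_of_le_of_ne h2 hne
  have := Nat.mul_lt_mul_of_le_of_lt h1 h3 hn
  omega

end IsMC

/-- Upper bound for the kernel of a stem extension of a metacyclic group. -/
theorem stem_ker_of_isMC [Finite G] {a b : G} {m n r t : ℕ} (h : IsMC a b m n (r + 1) t)
    {Γ : Type v} [Group Γ] {σ : Γ →* G} (hσ : IsStemExtension σ) :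
    IsCyclic σ.ker ∧ Nat.card σ.ker * orderOf (a ^ r) ∣
      Nat.gcd m (Nat.gcd t (∑ i ∈ Finset.range n, (r + 1) ^ i)) := by
  have := finite_of_stem hσ
  obtain ⟨x, rfl⟩ := hσ.1 a
  obtain ⟨y, rfl⟩ := hσ.1 b
  have gen : closure ({x, y} : Set Γ) = ⊤ := by
    apply eq_top_of_stem hσ
    rw [MonoidHom.map_closure, Set.image_pair, h.gen]
  set c := ⁅y, x⁆ with hc
  have hσc : σ c = σ x ^ r := by
    rw [hc, map_commutatorElement, commutatorElement_def, h.conj, pow_succ, mul_inv_cancel_right]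
  have hz : (x ^ r)⁻¹ * c ∈ center Γ := hσ.2.1 (by simp [MonoidHom.mem_ker, hσc])
  set z := (x ^ r)⁻¹ * c with hzdef
  have hcz : c = x ^ r * z := by rw [hzdef]; group
  have hxc : Commute c x := by
    rw [hcz]
    exact ((Commute.refl x).pow_left r).mul_left (mem_center_iff.1 hz x).symm
  have h1 : y * x * y⁻¹ = c * x := by rw [hc, commutatorElement_def]; group
  have h2 : ∀ j : ℕ, y * x ^ j * y⁻¹ = c ^ j * x ^ j := fun j => by
    rw [← conj_pow, h1, hxc.mul_pow]
  have h3 : ∀ j : ℕ, Commute y (x ^ j) → c ^ j = 1 := fun j hj => by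
    have := h2 j
    rw [hj.eq, mul_inv_cancel_right] at this
    exact (mul_eq_right.1 this.symm)
  have h4 : y * c * y⁻¹ = c ^ (r + 1) := by
    conv_lhs => rw [hcz]
    rw [← mul_assoc, mul_assoc (y * x ^ r), ← mem_center_iff.1 hz y⁻¹, ← mul_assoc, h2, mul_assoc,
      ← hcz, pow_succ]
  have h5 : ∀ i : ℕ, y ^ i * x * (y ^ i)⁻¹ = c ^ (∑ j ∈ Finset.range i, (r + 1) ^ j) * x := by
    intro i
    induction i with
    | zero => simp
    | succ i ih =>
      have : y ^ (i + 1) * x * (y ^ (i + 1))⁻¹ = y * (y ^ i * x * (y ^ i)⁻¹) * y⁻¹ := by group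
      rw [this, ih, geom_sum_succ, pow_succ, pow_mul, ← h4, conj_pow, mul_assoc _ c x, ← h1]
      group
  have hm : c ^ m = 1 := h3 m (mem_center_iff.1 (hσ.2.1 (by simp [MonoidHom.mem_ker, h.pow_a])) y)
  have hv : (y ^ n)⁻¹ * x ^ t ∈ center Γ := hσ.2.1 (by simp [MonoidHom.mem_ker, h.pow_b])
  have ht : c ^ t = 1 := by
    apply h3
    have : x ^ t = y ^ n * ((y ^ n)⁻¹ * x ^ t) := by group
    rw [this]
    exact ((Commute.refl y).pow_right n).mul_right (mem_center_iff.1 hv y)
  have hs : c ^ (∑ j ∈ Finset.range n, (r + 1) ^ j) = 1 := by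
    have h6 := h5 n
    have h7 : Commute (y ^ n) x := by
      have : y ^ n = x ^ t * ((y ^ n)⁻¹ * x ^ t)⁻¹ := by group
      rw [this]
      exact ((Commute.refl x).pow_left t).mul_left (mem_center_iff.1 (inv_mem hv) x).symm
    rw [h7.eq, mul_inv_cancel_right] at h6
    exact (mul_eq_right.1 h6.symm)
  have hN : (zpowers c).Normal := zpowers_normal_of_conj (isOfFinOrder_of_finite c) gen
    (by rw [← hxc.eq, mul_inv_cancel_right]; exact mem_zpowers c) (h4 ▸ npow_mem_zpowers c _)
  have hK : σ.ker ≤ zpowers c := hσ.2.2.trans (commutator_le_of_pair gen _ (mem_zpowers c))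
  refine ⟨Subgroup.isCyclic_of_le hK, ?_⟩
  have h8 : orderOf c = Nat.card σ.ker * orderOf (σ c) := by
    let f : zpowers c →* Γ := (zpowers c).subtype
    rw [← Nat.card_zpowers, ← (σ.comp f).ker.card_mul_index, Subgroup.index_ker,
      MonoidHom.range_comp, Subgroup.range_subtype, MonoidHom.map_zpowers, Nat.card_zpowers]
    congr 1
    exact Nat.card_congr (subgroupOfEquivOfLe hK).toEquiv
  rw [← hσc, ← h8]
  exact Nat.dvd_gcd (orderOf_dvd_of_pow_eq_one hm)
    (Nat.dvd_gcd (orderOf_dvd_of_pow_eq_one ht) (orderOf_dvd_of_pow_eq_one hs))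

end

/-- Existence of metacyclic groups with prescribed parameters. -/
theorem exists_isMC (m n r t : ℕ) (hm : 0 < m) (hn : 0 < n) (h1 : r ^ n ≡ 1 [MOD m])
    (h2 : t * r ≡ t [MOD m]) :
    ∃ (Γ : Type) (_ : Group Γ) (a b : Γ), IsMC a b m n r t ∧ Nat.card Γ = n * m := by
  obtain ⟨C, _, _, g, hC, hg'⟩ : ∃ (C : Type) (_ : CommGroup C) (_ : Finite C) (g : C),
      Nat.card C = m ∧ ∀ x, x ∈ zpowers g := by
    have : NeZero m := ⟨hm.ne'⟩
    obtain ⟨g, hg⟩ := IsCyclic.exists_generator (α := Multiplicative (ZMod m))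
    exact ⟨Multiplicative (ZMod m), inferInstance, inferInstance, g, by simp, hg⟩
  have hg : orderOf g = m := (orderOf_eq_card_of_forall_mem_zpowers hg').trans hC
  have hcop : Nat.Coprime (Nat.card C) r := by
    rw [hC]
    have := h1.gcd_eq
    rw [Nat.gcd_one_left] at this
    exact (Nat.Coprime.of_dvd_left (dvd_pow_self r hn.ne') this).symm
  let α : MulAut C := { powCoprime hcop with map_mul' := fun x y => mul_pow x y r }
  have hα : ∀ x, α x = x ^ r := fun x => rfl
  have hαi : ∀ (i : ℕ) x, (α ^ i) x = x ^ r ^ i := by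
    intro i
    induction i with
    | zero => simp
    | succ i ih => intro x; rw [pow_succ', MulAut.mul_apply, ih, hα, ← pow_mul, ← pow_succ]
  have hpm : ∀ (x : C) {i j : ℕ}, i ≡ j [MOD m] → x ^ i = x ^ j := fun x i j hij =>
    pow_eq_pow_of_modEq hij (by rw [← hC]; exact pow_card_eq_one')
  have hαn : α ^ n = 1 := by
    ext x : 1
    rw [hαi, hpm x h1, pow_one]; rfl
  let φ : Multiplicative ℤ →* MulAut C := zpowersHom _ α
  let H := C ⋊[φ] Multiplicative ℤ
  let a : H := SemidirectProduct.inl g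
  let b : H := SemidirectProduct.inr (Multiplicative.ofAdd 1)
  have hba : b * a * b⁻¹ = a ^ r := by
    rw [← map_inv, ← SemidirectProduct.inl_aut, ← map_pow, ← hα]
    simp [φ]
  have hbn : Commute (b ^ n) a := by
    have : b ^ n * a * (b ^ n)⁻¹ = a := by
      rw [← map_pow, ← map_inv, ← SemidirectProduct.inl_aut, map_pow]
      simp [φ, hαn, a]
    exact mul_inv_eq_iff_eq_mul.1 this
  have hat : Commute b (a ^ t) := by
    have : b * a ^ t * b⁻¹ = a ^ t := by
      rw [← conj_pow, hba, ← pow_mul, ← map_pow, ← map_pow, mul_comm r t, hpm g h2]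
    exact mul_inv_eq_iff_eq_mul.1 this
  have gen : closure ({a, b} : Set H) = ⊤ := by
    rw [eq_top_iff]
    intro x _
    rw [← SemidirectProduct.inl_left_mul_inr_right x]
    refine mul_mem ?_ ?_
    · obtain ⟨k, hk⟩ := hg' x.left
      rw [← hk, map_zpow]
      exact zpow_mem (subset_closure (by simp [a])) k
    · have : x.right = Multiplicative.ofAdd (1 : ℤ) ^ x.right.toAdd := by
        rw [← ofAdd_zsmul]; simp
      rw [this, map_zpow]
      exact zpow_mem (subset_closure (by simp [b])) _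
  let w : H := b ^ n * (a ^ t)⁻¹
  have hw : w ∈ center H := by
    have : centralizer {w} = ⊤ := eq_top_of_mem_pair gen
      (mem_centralizer_singleton_iff.2
        (hbn.mul_left ((Commute.refl a).pow_left t).inv_left).symm)
      (mem_centralizer_singleton_iff.2
        (((Commute.refl b).pow_left n).mul_left hat.symm.inv_left).symm)
    rw [mem_center_iff]
    intro x
    exact mem_centralizer_singleton_iff.1 (this ▸ mem_top x)
  let W := zpowers w
  have hW : W.Normal := normal_of_le_center (zpowers_le.2 hw)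
  obtain ⟨ρ, hρa, hρb⟩ : ∃ ρ : H →* Multiplicative ℤ, ρ a = 1 ∧ ρ b = Multiplicative.ofAdd 1 :=
    ⟨SemidirectProduct.rightHom, rfl, rfl⟩
  have hr : ∀ k : ℤ, (ρ (w ^ k)).toAdd = k * n := by
    intro k
    have : ρ w = Multiplicative.ofAdd (n : ℤ) := by
      rw [map_mul, map_inv, map_pow, map_pow, hρa, hρb, ← ofAdd_nsmul]; simp
    rw [map_zpow, this]
    simp
  have hMC : IsMC (a : H ⧸ W) (b : H ⧸ W) m n r t :=
    { pow_a := by
        rw [← QuotientGroup.mk_pow, ← map_pow, ← hg, pow_orderOf_eq_one, map_one, QuotientGroup.mk_one]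
      pow_b := by
        rw [← QuotientGroup.mk_pow, ← QuotientGroup.mk_pow, eq_comm, QuotientGroup.eq]
        have : (a ^ t)⁻¹ * b ^ n = w := (hbn.pow_right t).inv_right.eq.symm
        rw [this]
        exact mem_zpowers w
      conj := by
        rw [← QuotientGroup.mk_pow, ← hba]; rfl
      gen := by
        have := congrArg (Subgroup.map (QuotientGroup.mk' W)) gen
        rwa [MonoidHom.map_closure, Set.image_pair,
          map_top_of_surjective _ (QuotientGroup.mk'_surjective W)] at this }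
  refine ⟨H ⧸ W, inferInstance, a, b, hMC, ?_⟩
  have := hMC.normal hm
  rw [hMC.card_eq]
  congr 1
  · apply Nat.dvd_antisymm (orderOf_dvd_of_pow_eq_one hMC.mk_b_pow)
    have h3 := pow_orderOf_eq_one ((b : H ⧸ W) : (H ⧸ W) ⧸ zpowers (a : H ⧸ W))
    set j := orderOf ((b : H ⧸ W) : (H ⧸ W) ⧸ zpowers (a : H ⧸ W))
    rw [← QuotientGroup.mk_pow, QuotientGroup.eq_one_iff] at h3
    obtain ⟨i, hi⟩ := h3
    simp only at hi
    rw [← QuotientGroup.mk_zpow, ← QuotientGroup.mk_pow, QuotientGroup.eq] at hi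
    obtain ⟨k, hk⟩ := hi
    have h4 := hr k
    simp only at hk
    rw [hk] at h4
    simp [hρa, hρb] at h4
    exact Int.natCast_dvd_natCast.1 ⟨k, by rw [h4, mul_comm]⟩
  · apply Nat.dvd_antisymm (orderOf_dvd_of_pow_eq_one hMC.pow_a)
    have h3 := pow_orderOf_eq_one (a : H ⧸ W)
    set j := orderOf (a : H ⧸ W)
    rw [← QuotientGroup.mk_pow, QuotientGroup.eq_one_iff] at h3
    obtain ⟨k, hk⟩ := h3
    have h4 := hr k
    simp only at hk
    rw [hk] at h4
    have h5 : k = 0 := by
      simp [hρa] at h4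
      omega
    rw [h5, zpow_zero, ← map_pow, eq_comm, map_eq_one_iff _ SemidirectProduct.inl_injective] at hk
    rw [← hg]
    exact orderOf_dvd_of_pow_eq_one hk

/-- The relators of the metacyclic presentation. -/
def mcRels (m n r t : ℕ) : Set (FreeGroup Bool) :=
  {FreeGroup.of true ^ m, (FreeGroup.of false) ^ n * (FreeGroup.of true ^ t)⁻¹,
    FreeGroup.of false * FreeGroup.of true * (FreeGroup.of false)⁻¹ * (FreeGroup.of true ^ r)⁻¹}

theorem isMC_presented (m n r t : ℕ) :
    IsMC (PresentedGroup.of true : PresentedGroup (mcRels m n r t)) (PresentedGroup.of false) m n r t where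
  pow_a := by
    have := PresentedGroup.one_of_mem (rels := mcRels m n r t) (x := FreeGroup.of true ^ m)
      (by simp [mcRels])
    rwa [map_pow] at this
  pow_b := by
    have := PresentedGroup.one_of_mem (rels := mcRels m n r t)
      (x := (FreeGroup.of false) ^ n * (FreeGroup.of true ^ t)⁻¹) (by simp [mcRels])
    rwa [map_mul, map_inv, map_pow, map_pow, mul_inv_eq_one] at this
  conj := by
    have := PresentedGroup.one_of_mem (rels := mcRels m n r t)
      (x := FreeGroup.of false * FreeGroup.of true * (FreeGroup.of false)⁻¹ * (FreeGroup.of true ^ r)⁻¹)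
      (by simp [mcRels])
    rwa [map_mul, map_mul, map_mul, map_inv, map_inv, map_pow, mul_inv_eq_one] at this
  gen := by
    rw [← PresentedGroup.closure_range_of]
    congr 1
    ext x
    simp [or_comm]

theorem IsMC.exists_hom {G : Type u} [Group G] {a b : G} {m n r t : ℕ} (h : IsMC a b m n r t) :
    ∃ f : PresentedGroup (mcRels m n r t) →* G, Function.Surjective f ∧
      f (PresentedGroup.of true) = a ∧ f (PresentedGroup.of false) = b := by
  let f := PresentedGroup.toGroup (f := fun x : Bool => if x then a else b) (rels := mcRels m n r t) (by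
    rintro x (rfl | rfl | rfl)
    · simp [h.pow_a]
    · simp [h.pow_b]
    · simp [h.conj])
  have h1 : f (PresentedGroup.of true) = a := PresentedGroup.toGroup.of _
  have h2 : f (PresentedGroup.of false) = b := PresentedGroup.toGroup.of _
  refine ⟨f, ?_, h1, h2⟩
  rw [← MonoidHom.range_eq_top]
  exact eq_top_of_mem_pair h.gen ⟨_, h1⟩ ⟨_, h2⟩

/-- A metacyclic group of the full order `n m` is the presented group. -/
theorem IsMC.exists_equiv {G : Type u} [Group G] {a b : G} {m n r t : ℕ} (h : IsMC a b m n r t)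
    (hm : 0 < m) (hn : 0 < n) (hc : Nat.card G = n * m) :
    ∃ e : PresentedGroup (mcRels m n r t) ≃* G,
      e (PresentedGroup.of true) = a ∧ e (PresentedGroup.of false) = b := by
  obtain ⟨f, hf, h1, h2⟩ := h.exists_hom
  have := (isMC_presented m n r t).finite hm hn
  exact ⟨MulEquiv.ofBijective f (bijective_of_surjective_of_card_le f hf
    (hc ▸ (isMC_presented m n r t).card_le hm hn)), h1, h2⟩

theorem card_presented_mc {m n r t : ℕ} (hm : 0 < m) (hn : 0 < n) (h1 : r ^ n ≡ 1 [MOD m])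
    (h2 : t * r ≡ t [MOD m]) : Nat.card (PresentedGroup (mcRels m n r t)) = n * m := by
  obtain ⟨Γ, _, a, b, h, hc⟩ := exists_isMC m n r t hm hn h1 h2
  obtain ⟨e, -⟩ := h.exists_equiv hm hn hc
  rw [Nat.card_congr e.toEquiv, hc]

/-- The Schur multiplier of a metacyclic group. -/
theorem IsMC.hasSM {G : Type u} [Group G] {a b : G} {m n r l : ℕ} (hm : 0 < m) (hn : 0 < n)
    (h : IsMC a b m n (r + 1) (m * l / Nat.gcd m r)) (hc : Nat.card G = n * m) :
    HasCyclicSchurMultiplier G
      (Nat.gcd l (Nat.gcd m r * Nat.gcd m (∑ i ∈ Finset.range n, (r + 1) ^ i) / m)) := by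
  have := h.finite hm hn
  have ha := h.orderOf_a hm hn hc
  set s := ∑ i ∈ Finset.range n, (r + 1) ^ i with hs
  have hrs : m ∣ r * s := by
    have h1 : ∀ i : ℕ, b ^ i * a * (b ^ i)⁻¹ = a ^ (r + 1) ^ i := by
      intro i
      induction i with
      | zero => simp
      | succ i ih =>
        have : b ^ (i + 1) * a * (b ^ (i + 1))⁻¹ = b * (b ^ i * a * (b ^ i)⁻¹) * b⁻¹ := by group
        rw [this, ih, ← conj_pow, h.conj, ← pow_mul, ← pow_succ']
    have h2 := h1 n
    rw [h.pow_b, ((Commute.refl a).pow_left _).eq, mul_inv_cancel_right, ← geom_sum_mul_add r n,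
      ← hs, pow_succ, eq_comm, mul_eq_right, ← orderOf_dvd_iff_pow_eq_one, ha, mul_comm] at h2
    exact h2
  have hd : 0 < Nat.gcd m r := Nat.gcd_pos_of_pos_left _ hm
  have hcop := Nat.coprime_div_gcd_div_gcd hd
  obtain ⟨m₁, hm₁⟩ := Nat.gcd_dvd_left m r
  obtain ⟨r₁, hr₁⟩ := Nat.gcd_dvd_right m r
  obtain ⟨h', hh'⟩ := Nat.dvd_gcd_mul_gcd_iff_dvd_mul.2 hrs
  set d := Nat.gcd m r with hdd
  have e1 : m / d = m₁ := Nat.div_eq_of_eq_mul_right hd hm₁
  have e2 : r / d = r₁ := Nat.div_eq_of_eq_mul_right hd hr₁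
  rw [e1, e2] at hcop
  have hm₁0 : 0 < m₁ := Nat.pos_of_ne_zero (by rintro rfl; omega)
  have e3 : m * l / d = m₁ * l := Nat.div_eq_of_eq_mul_right hd (by rw [← mul_assoc, ← hm₁])
  have e4 : d * Nat.gcd m s / m = h' := Nat.div_eq_of_eq_mul_right hm hh'
  have e5 : Nat.gcd m s = m₁ * h' :=
    Nat.eq_of_mul_eq_mul_left hd (by rw [hh', ← mul_assoc, ← hm₁])
  rw [e3] at h
  rw [e4]
  have hh0 : 0 < h' := Nat.pos_of_ne_zero (by
    rintro rfl
    have := Nat.gcd_pos_of_pos_left s hm
    omega)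
  set e := Nat.gcd l h' with he
  have he0 : 0 < e := Nat.gcd_pos_of_pos_right _ hh0
  have hhd : h' ∣ d := by
    have := Nat.gcd_dvd_left m s
    rw [e5] at this
    conv_rhs at this => rw [hm₁, mul_comm]
    exact Nat.dvd_of_mul_dvd_mul_left hm₁0 this
  have : NeZero e := ⟨he0.ne'⟩
  -- the covering group
  obtain ⟨p, hp1, hp2, hp3⟩ := Nat.forall_exists_prime_gt_and_modEq (m₁ * e + r₁) hm₁0.ne' hcop.symm
  obtain ⟨y, hy⟩ : ∃ y, p = r₁ + m₁ * y := by
    obtain ⟨y, hy⟩ := (Nat.modEq_iff_dvd' (by omega : r₁ ≤ p)).1 hp3.symm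
    exact ⟨y, by omega⟩
  have hpc : Nat.Coprime (m₁ * e) p :=
    (Nat.coprime_of_lt_prime (Nat.mul_pos hm₁0 he0).ne' (by omega) hp2).symm
  have hmod : d * p + 1 ≡ r + 1 [MOD m] := by
    apply Nat.ModEq.add_right
    rw [hy, mul_add, ← hr₁, ← mul_assoc, ← hm₁]
    exact Nat.add_mul_mod_self_left r m y
  have hs' : m₁ * h' ∣ ∑ i ∈ Finset.range n, (d * p + 1) ^ i := by
    have h1 : ∑ i ∈ Finset.range n, (d * p + 1) ^ i ≡ s [MOD m] :=
      Nat.ModEq.sum (fun i _ => hmod.pow i)
    rw [← e5]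
    exact (h1.dvd_iff (Nat.gcd_dvd_left m s)).2 (Nat.gcd_dvd_right m s)
  obtain ⟨Γ, _, x, z, hΓ, hcΓ⟩ := exists_isMC (m * e) n (d * p + 1) (m₁ * l) (Nat.mul_pos hm he0) hn
    (by
      rw [← geom_sum_mul_add (d * p) n]
      apply (Nat.modEq_iff_dvd' (by omega)).2 _ |>.symm
      rw [Nat.add_sub_cancel, mul_comm _ (d * p), hm₁, mul_assoc d m₁]
      exact Nat.mul_dvd_mul (Dvd.intro _ rfl)
        ((Nat.mul_dvd_mul_left m₁ (Nat.gcd_dvd_right l h')).trans hs'))
    (by
      rw [mul_add, mul_one]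
      apply (Nat.modEq_iff_dvd' (by omega)).2 _ |>.symm
      rw [Nat.add_sub_cancel]
      obtain ⟨l', hl'⟩ := Nat.gcd_dvd_left l h'
      refine ⟨l' * p, ?_⟩
      rw [hm₁]
      conv_lhs => rw [hl']
      ring)
  have := hΓ.finite (Nat.mul_pos hm he0) hn
  have hx := hΓ.orderOf_a (Nat.mul_pos hm he0) hn hcΓ
  have hcen : x ^ m ∈ center Γ := by
    have : centralizer {x ^ m} = ⊤ := eq_top_of_mem_pair hΓ.gen
      (mem_centralizer_singleton_iff.2 ((Commute.refl x).pow_right m))
      (mem_centralizer_singleton_iff.2 (by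
        rw [← mul_inv_eq_iff_eq_mul, ← conj_pow, hΓ.conj, ← pow_mul, add_mul, one_mul, pow_add,
          mul_eq_right, ← orderOf_dvd_iff_pow_eq_one, hx, mul_comm _ m]
        exact Nat.mul_dvd_mul_left m (((Nat.gcd_dvd_right l h').trans hhd).mul_right p)))
    rw [mem_center_iff]
    intro g
    exact mem_centralizer_singleton_iff.1 (this ▸ mem_top g)
  let K := zpowers (x ^ m)
  have hKc : K ≤ center Γ := zpowers_le.2 hcen
  have hKn : K.Normal := normal_of_le_center hKc
  have hKe : Nat.card K = e := by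
    rw [Nat.card_zpowers, orderOf_pow' _ hm.ne', hx, Nat.gcd_mul_right_left,
      Nat.mul_div_cancel_left _ hm]
  have hK' : K ≤ _root_.commutator Γ := by
    rw [zpowers_le, ← QuotientGroup.eq_one_iff, QuotientGroup.mk_pow]
    have h1 : (x : Γ ⧸ _root_.commutator Γ) ^ (m * e) = 1 := by
      rw [← QuotientGroup.mk_pow, hΓ.pow_a, QuotientGroup.mk_one]
    have h2 : (x : Γ ⧸ _root_.commutator Γ) ^ (d * p) = 1 := by
      rw [← QuotientGroup.mk_pow, QuotientGroup.eq_one_iff]
      have : x ^ (d * p) = ⁅z, x⁆ := by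
        rw [commutatorElement_def, hΓ.conj, pow_succ, mul_inv_cancel_right]
      rw [this]
      exact commutator_mem_commutator (mem_top _) (mem_top _)
    have h3 := pow_gcd_eq_one.2 ⟨h1, h2⟩
    rw [hm₁, mul_assoc, Nat.gcd_mul_left, hpc, mul_one] at h3
    rw [hm₁, pow_mul, h3, one_pow]
  have hxm : (x : Γ ⧸ K) ^ m = 1 := by
    rw [← QuotientGroup.mk_pow, QuotientGroup.eq_one_iff]; exact mem_zpowers _
  have hQ := hΓ.map (QuotientGroup.mk' K) (QuotientGroup.mk'_surjective K)
  have hQ' : IsMC (x : Γ ⧸ K) (z : Γ ⧸ K) m n (r + 1) (m₁ * l) :=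
    ⟨hxm, hQ.pow_b, hQ.conj.trans (pow_eq_pow_of_modEq hmod hxm), hQ.gen⟩
  have hcQ : Nat.card (Γ ⧸ K) = n * m := by
    have := card_eq_card_quotient_mul_card_subgroup K
    rw [hcΓ, hKe, ← mul_assoc] at this
    exact (Nat.eq_of_mul_eq_mul_right he0 this).symm
  obtain ⟨e₁, -⟩ := hQ'.exists_equiv hm hn hcQ
  obtain ⟨e₂, -⟩ := h.exists_equiv hm hn hc
  have hst : IsStemExtension (QuotientGroup.mk' K) :=
    ⟨QuotientGroup.mk'_surjective K, (QuotientGroup.ker_mk' K).trans_le hKc,
      (QuotientGroup.ker_mk' K).trans_le hK'⟩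
  refine hasSM_of_card_le _ (IsStem.comp_equiv hst (e₁.symm.trans e₂))
    ((MulEquiv.subgroupCongr ((ker_comp_equiv _ _).trans (QuotientGroup.ker_mk' K))).trans
      (mulEquivOfCyclicCardEq (by simp [hKe]))) ?_
  intro Δ _ _ τ hτ
  have h1 := (stem_ker_of_isMC h hτ).2
  rw [orderOf_pow, ha, ← hdd, e1, ← hs, Nat.gcd_comm (m₁ * l), ← Nat.gcd_assoc, e5, Nat.gcd_mul_left,
    mul_comm, Nat.gcd_comm h'] at h1
  simpa using Nat.le_of_dvd he0 (Nat.dvd_of_mul_dvd_mul_left hm₁0 h1)

end CL.Schur
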