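/-
The Schur multiplier of a finite dihedral group.
-/
import Cfsg.Agent.Fgs.SchurMetacyclic

set_option autoImplicit false

namespace CL.Schur

open Cfsg

theorem isMC_dihedral (k : ℕ) :
    IsMC (DihedralGroup.r 1 : DihedralGroup (k + 1)) (DihedralGroup.sr 0) (k + 1) 2 (2 * k + 1) 0 where
  pow_a := DihedralGroup.r_one_pow_n
  pow_b := by rw [sq, DihedralGroup.sr_mul_self, pow_zero]
  conj := by
    rw [mul_inv_eq_iff_eq_mul, DihedralGroup.r_one_pow, DihedralGroup.sr_mul_r,
      DihedralGroup.r_mul_sr]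
    congr 1
    have : ((k + 1 : ℕ) : ZMod (k + 1)) = 0 := ZMod.natCast_self _
    push_cast at this ⊢
    linear_combination 2 * this
  gen := by
    rw [eq_top_iff]
    have ha : ∀ i, DihedralGroup.r i ∈ Subgroup.closure
        ({DihedralGroup.r 1, DihedralGroup.sr 0} : Set (DihedralGroup (k + 1))) := by
      intro i
      have : (DihedralGroup.r i : DihedralGroup (k + 1)) = DihedralGroup.r 1 ^ i.val := by
        rw [DihedralGroup.r_one_pow, ZMod.natCast_zmod_val]
      rw [this]
      exact pow_mem (Subgroup.subset_closure (by simp)) _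
    rintro (i | i) _
    · exact ha i
    · have : (DihedralGroup.sr i : DihedralGroup (k + 1)) =
          DihedralGroup.sr 0 * DihedralGroup.r i := by simp
      rw [this]
      exact mul_mem (Subgroup.subset_closure (by simp)) (ha i)

/-- The Schur multiplier of the dihedral group of order `2 n` is cyclic of order `gcd n 2`. -/
theorem hasSM_dihedral (n : ℕ) (hn : 0 < n) :
    HasCyclicSchurMultiplier (DihedralGroup n) (Nat.gcd n 2) := by
  obtain ⟨k, rfl⟩ : ∃ k, n = k + 1 := ⟨n - 1, by omega⟩
  have h : IsMC (DihedralGroup.r 1 : DihedralGroup (k + 1)) (DihedralGroup.sr 0) (k + 1) 2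
      (2 * k + 1) ((k + 1) * 0 / Nat.gcd (k + 1) (2 * k)) := by
    simpa using isMC_dihedral k
  have h2 := h.hasSM hn (by omega) (by
    rw [Nat.card_eq_fintype_card, DihedralGroup.card])
  have e1 : ∑ i ∈ Finset.range 2, (2 * k + 1) ^ i = (k + 1) * 2 := by
    simp [Finset.sum_range_succ]; ring
  have e2 : Nat.gcd (k + 1) (2 * k) = Nat.gcd (k + 1) 2 :=
    Nat.Coprime.gcd_mul_right_cancel_right 2 (by simp)
  rw [e1, Nat.gcd_mul_right_right, Nat.mul_div_cancel _ hn, Nat.gcd_zero_left, e2] at h2
  exact h2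

end CL.Schur
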