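/-
Representations lying over a linear character of a central subgroup; lifting of projective representations
to Schur covers; the exponent of the kernel of a stem extension.
-/
import Cfsg.Agent.Fgs.SchurCover2
import Cfsg.Agent.Char.Basic

set_option autoImplicit false

namespace CL.Schur

open Cfsg Subgroup Module
open scoped commutatorElement IsMulCommutative ComplexConjugate

universe u v w

section reps
variable {Γ : Type u} [Group Γ]

/-- Right translation on functions. -/
def rightRep (Γ : Type u) [Group Γ] : Representation ℂ Γ (Γ → ℂ) where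
  toFun g := LinearMap.funLeft ℂ ℂ (fun x => x * g)
  map_one' := by ext f x; simp [LinearMap.funLeft]
  map_mul' g h := by
    apply LinearMap.ext; intro f; funext x
    simp [LinearMap.funLeft, mul_assoc]

theorem rightRep_apply (g : Γ) (f : Γ → ℂ) (x : Γ) : rightRep Γ g f x = f (x * g) := rfl

/-- The functions transforming by `lam` under the central subgroup `K`. -/
def overSub (K : Subgroup Γ) (hK : K ≤ center Γ) (lam : K →* ℂˣ) : Subrepresentation (rightRep Γ) where
  toSubmodule :=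
    { carrier := {f | ∀ (x : Γ) (k : K), f (x * k) = (lam k : ℂ) * f x}
      add_mem' := fun {f g} hf hg x k => by
        simp only [Pi.add_apply, hf x k, hg x k, mul_add]
      zero_mem' := fun x k => by simp
      smul_mem' := fun c f hf x k => by
        simp only [Pi.smul_apply, hf x k, smul_eq_mul]; ring }
  apply_mem_toSubmodule g f hf x k := by
    rw [rightRep_apply, rightRep_apply, mul_assoc, ← mem_center_iff.1 (hK k.2) g, ← mul_assoc]
    exact hf _ _

theorem exists_irr_sub_over [Finite Γ] (K : Subgroup Γ) (lam : K →* ℂˣ) (n : ℕ) :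
    ∀ (V : Type u) [AddCommGroup V] [Module ℂ V] [FiniteDimensional ℂ V] [Nontrivial V]
      (ρ : Representation ℂ Γ V), finrank ℂ V = n →
      (∀ (k : K) (v : V), ρ k v = (lam k : ℂ) • v) →
      ∃ (m : ℕ) (σ : Representation ℂ Γ (Fin m → ℂ)), σ.IsIrreducible ∧
        ∀ (k : K) (v : Fin m → ℂ), σ k v = (lam k : ℂ) • v := by
  induction n using Nat.strong_induction_on with
  | _ n ih =>
    intro V _ _ _ _ ρ hn h
    rcases CL.Char.subsingleton_or_irreducible_or_split ρ with h1 | h1 | ⟨U, W, hUW, hU, hW⟩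
    · exact absurd h1 (not_subsingleton V)
    · refine ⟨_, CL.Char.repConj ρ (Module.finBasis ℂ V).equivFun,
        CL.Char.isIrreducible_of_equiv (CL.Char.repConjEquiv _ _), fun k v => ?_⟩
      rw [CL.Char.repConj_apply, h, map_smul, LinearEquiv.apply_symm_apply]
    · have h2 := Submodule.finrank_add_eq_of_isCompl (CL.Char.isCompl_toSubmodule hUW)
      have h3 : 0 < finrank ℂ U.toSubmodule := by omega
      have : Nontrivial U.toSubmodule := Module.nontrivial_of_finrank_pos h3
      refine ih _ (hn ▸ hU) _ U.toRepresentation rfl (fun k v => Subtype.ext ?_)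
      exact h k v

/-- An irreducible representation lying over a given linear character of a central subgroup. -/
theorem exists_irr_over [Finite Γ] (K : Subgroup Γ) (hK : K ≤ center Γ) (lam : K →* ℂˣ) :
    ∃ (m : ℕ) (σ : Representation ℂ Γ (Fin m → ℂ)), σ.IsIrreducible ∧
        ∀ (k : K) (v : Fin m → ℂ), σ k v = (lam k : ℂ) • v := by
  classical
  let f : Γ → ℂ := fun x => if h : x ∈ K then (lam ⟨x, h⟩ : ℂ) else 0
  have hf : f ∈ (overSub K hK lam).toSubmodule := by
    intro x k
    by_cases hx : x ∈ K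
    · have hx' : x * k ∈ K := K.mul_mem hx k.2
      simp only [f, dif_pos hx, dif_pos hx']
      rw [mul_comm (lam k : ℂ), ← Units.val_mul, ← map_mul]
      rfl
    · have hx' : x * k ∉ K := fun h => hx ((K.mul_mem_cancel_right k.2).1 h)
      simp only [f, dif_neg hx, dif_neg hx', mul_zero]
  have : Nontrivial (overSub K hK lam).toSubmodule := by
    refine ⟨⟨⟨f, hf⟩, 0, fun h => ?_⟩⟩
    have h1 : f 1 = 0 := congrFun (congrArg Subtype.val h) 1
    simp only [f, dif_pos K.one_mem] at h1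
    exact Units.ne_zero _ h1
  refine exists_irr_sub_over K lam _ _ (overSub K hK lam).toRepresentation rfl (fun k v => ?_)
  apply Subtype.ext
  funext x
  exact v.2 x k

/-- A matrix representation lying over a given linear character of a central subgroup, of small degree. -/
theorem exists_GL_over [Finite Γ] (K : Subgroup Γ) (hK : K ≤ center Γ) (lam : K →* ℂˣ) :
    ∃ (n : ℕ) (ρ : Γ →* GL (Fin n) ℂ), 0 < n ∧ n ^ 2 * Nat.card K ≤ Nat.card Γ ∧
      ∀ k : K, ρ k = Matrix.GeneralLinearGroup.scalar (Fin n) (lam k) := by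
  classical
  obtain ⟨n, σ, hσ, h⟩ := exists_irr_over K hK lam
  have hn : 0 < n := by simpa using CL.Char.finrank_pos_of_isIrreducible σ
  have := Fintype.ofFinite Γ
  refine ⟨n, ((LinearMap.toMatrixAlgEquiv' (R := ℂ) (n := Fin n)).toMonoidHom.comp σ).toHomUnits,
    hn, ?_, ?_⟩
  · have hc : (Nat.card Γ : ℂ) ≠ 0 := by exact_mod_cast Nat.card_pos.ne'
    have : Invertible (Nat.card Γ : ℂ) := invertibleOfNonzero hc
    have h1 := Representation.char_orthonormal σ σ
    rw [if_pos ⟨Representation.Equiv.refl σ⟩, inv_mul_eq_one₀ hc] at h1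
    have h2 : ∀ g, σ.character g * σ.character g⁻¹ = (Complex.normSq (σ.character g) : ℂ) := by
      intro g
      rw [← CL.Char.conj_character, Complex.mul_conj]
    simp only [h2] at h1
    have h3 : (Nat.card Γ : ℝ) = ∑ g, Complex.normSq (σ.character g) := by exact_mod_cast h1
    have h4 : ∀ k ∈ Finset.univ.filter (· ∈ K), Complex.normSq (σ.character k) = (n : ℝ) ^ 2 := by
      intro k hk
      have hk' : k ∈ K := (Finset.mem_filter.1 hk).2
      have h5 : σ k = (lam ⟨k, hk'⟩ : ℂ) • LinearMap.id := LinearMap.ext (h ⟨k, hk'⟩)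
      have h6 : Complex.normSq (lam ⟨k, hk'⟩ : ℂ) = 1 := by
        have := CL.Char.conj_monoidHom_apply lam ⟨k, hk'⟩
        have h7 := Complex.mul_conj (lam ⟨k, hk'⟩ : ℂ)
        rw [this, ← Units.val_mul, ← map_mul, mul_inv_cancel, map_one, Units.val_one] at h7
        exact_mod_cast h7.symm
      rw [Representation.character, h5, map_smul, LinearMap.trace_id, smul_eq_mul, map_mul, h6]
      simp [sq]
    have h5 : ∑ k ∈ Finset.univ.filter (· ∈ K), Complex.normSq (σ.character k) ≤
        ∑ g, Complex.normSq (σ.character g) :=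
      Finset.sum_le_sum_of_subset_of_nonneg (Finset.subset_univ _)
        (fun _ _ _ => Complex.normSq_nonneg _)
    rw [Finset.sum_congr rfl h4, Finset.sum_const, ← h3, nsmul_eq_mul] at h5
    have h6 : (Finset.univ.filter (· ∈ K)).card = Nat.card K := by
      rw [Nat.card_eq_fintype_card, Fintype.card_subtype]
    rw [h6, mul_comm] at h5
    exact_mod_cast h5
  · intro k
    have h5 : σ k = (lam k : ℂ) • LinearMap.id := LinearMap.ext (h k)
    apply Units.ext
    show LinearMap.toMatrixAlgEquiv' (σ k) = Matrix.scalar (Fin n) (lam k : ℂ)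
    rw [h5, map_smul]
    have : (LinearMap.id : (Fin n → ℂ) →ₗ[ℂ] (Fin n → ℂ)) = 1 := rfl
    rw [this, map_one, Matrix.scalar_apply, ← Matrix.smul_one_eq_diagonal]

theorem scalar_GL_injective {n : ℕ} (hn : 0 < n) :
    Function.Injective (Matrix.GeneralLinearGroup.scalar (Fin n) : ℂˣ →* GL (Fin n) ℂ) := by
  have : Nonempty (Fin n) := ⟨⟨0, hn⟩⟩
  intro a b h
  apply Units.ext
  have : Matrix.scalar (Fin n) (a : ℂ) = Matrix.scalar (Fin n) (b : ℂ) := congrArg Units.val h
  exact Matrix.scalar_inj.1 this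

/-- A character value on `K ⊓ Γ'` has order dividing the degree of a representation lying over it. -/
theorem pow_degree_eq_one {n : ℕ} (ρ : Γ →* GL (Fin n) ℂ) {x : Γ} (hx : x ∈ _root_.commutator Γ)
    {c : ℂˣ} (h : ρ x = Matrix.GeneralLinearGroup.scalar (Fin n) c) : c ^ n = 1 := by
  have h1 := Abelianization.commutator_subset_ker (Matrix.GeneralLinearGroup.det.comp ρ) hx
  rw [MonoidHom.mem_ker, MonoidHom.comp_apply, h, Matrix.GeneralLinearGroup.det_scalar] at h1
  simpa using h1

/-- For `x` in the kernel of a stem extension of `Q` and a linear character `lam` of the kernel, the order of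
`lam x` is at most the square root of `|Q|`. -/
theorem orderOf_sq_le {Q : Type v} [Group Q] [Finite Q] {σ : Γ →* Q} (hσ : IsStemExtension σ)
    (lam : σ.ker →* ℂˣ) (x : σ.ker) : orderOf (lam x) ^ 2 ≤ Nat.card Q := by
  have := finite_of_stem hσ
  obtain ⟨n, ρ, hn, h1, h2⟩ := exists_GL_over σ.ker hσ.2.1 lam
  have h3 := pow_degree_eq_one ρ (hσ.2.2 x.2) (h2 x)
  have h4 : orderOf (lam x) ≤ n := orderOf_le_of_pow_eq_one hn h3
  rw [card_eq_card_ker_mul hσ.1, mul_comm] at h1
  exact (Nat.pow_le_pow_left h4 2).trans (Nat.le_of_mul_le_mul_left h1 Nat.card_pos)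

end reps

section proj
variable {Q : Type u} [Group Q] {A : Type v} [CommGroup A]

theorem center_GL_divisible (n m : ℕ) (hm : m ≠ 0) (d : center (GL (Fin n) ℂ)) :
    ∃ x : center (GL (Fin n) ℂ), x ^ m = d := by
  obtain ⟨d, hd⟩ := d
  have hd' := hd
  rw [Matrix.GeneralLinearGroup.center_eq_range_scalar] at hd'
  obtain ⟨c, rfl⟩ := hd'
  obtain ⟨x, rfl⟩ := units_complex_divisible m hm c
  refine ⟨⟨Matrix.GeneralLinearGroup.scalar (Fin n) x, ?_⟩, Subtype.ext ?_⟩
  · rw [Matrix.GeneralLinearGroup.center_eq_range_scalar]; exact ⟨x, rfl⟩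
  · simp

/-- Homomorphisms to `H` lift from `Q` to a Schur cover along a central extension `X → H` with divisible
kernel. -/
theorem exists_lift_of_divisible (hA : HasSchurMultiplier Q A) {Γ : Type w} [Group Γ] {σ : Γ →* Q}
    (hσ : IsStemExtension σ) (hk : Nat.card A ≤ Nat.card σ.ker) {X H : Type*} [Group X] [Group H]
    (f : Q →* H) (ξ : X →* H) (hξ : Function.Surjective ξ) (hc : ξ.ker ≤ center X)
    (hD : ∀ n : ℕ, n ≠ 0 → ∀ d : ξ.ker, ∃ x : ξ.ker, x ^ n = d) :
    ∃ ρ : Γ →* X, ξ.comp ρ = f.comp σ := by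
  have := HasSM.finite_group hA
  have := fg_freeGroup Q
  have hcomm : IsMulCommutative ξ.ker :=
    ⟨⟨fun a b => Subtype.ext ((mem_center_iff.1 (hc b.2) a))⟩⟩
  let π := stdPres Q
  have hπ := stdPres_surjective Q
  obtain ⟨φ, hφ, -⟩ := exists_hom_hM π hπ σ hσ.1 hσ.2.1
  obtain ⟨ψ, hψ⟩ := exists_lift_HE π f ξ hξ hc
  have hs : Function.Surjective (σ.comp φ) := hφ ▸ hProj_surjective π hπ
  have h1 := cover_lift_ker_inf hA π hπ hσ hk φ hφ
  have h2 : ∀ s : φ.ker, ψ s ∈ ξ.ker := by
    intro s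
    have h3 : ξ (ψ s) = f (hProj π s) := DFunLike.congr_fun hψ _
    have h4 : σ (φ s) = hProj π s := DFunLike.congr_fun hφ _
    have h5 : φ s = 1 := s.2
    rw [MonoidHom.mem_ker, h3, ← h4, h5, map_one, map_one]
  obtain ⟨χ, hχ⟩ := exists_extension_of_divisible φ.ker h1 hD
    ((ψ.comp (Subgroup.subtype _)).codRestrict _ h2)
  let ρ' : HE π →* X :=
    { toFun := fun e => ψ e * ((χ e : X))⁻¹
      map_one' := by simp
      map_mul' := fun a b => by
        have hb := mem_center_iff.1 (hc (χ a)⁻¹.2) (ψ b * ((χ b : X))⁻¹)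
        simp only [map_mul, Subgroup.coe_mul, mul_inv_rev, Subgroup.coe_inv] at hb ⊢
        rw [mul_assoc, mul_assoc, ← hb]
        group }
  have hle : φ.ker ≤ ρ'.ker := by
    intro s hs
    have : (χ s : X) = ψ s := congrArg Subtype.val (hχ ⟨s, hs⟩)
    show ψ s * ((χ s : X))⁻¹ = 1
    rw [this, mul_inv_cancel]
  have hφs := surjective_of_stem hσ φ hs
  refine ⟨φ.liftOfSurjective hφs ⟨ρ', hle⟩, ?_⟩
  ext x
  obtain ⟨e, rfl⟩ := hφs x
  rw [MonoidHom.comp_apply, MonoidHom.liftOfRightInverse_comp_apply]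
  have h3 : ξ (ψ e) = f (hProj π e) := DFunLike.congr_fun hψ _
  have h4 : σ (φ e) = hProj π e := DFunLike.congr_fun hφ _
  have h5 : ξ (χ e) = 1 := (χ e).2
  show ξ (ψ e * ((χ e : X))⁻¹) = f (σ (φ e))
  rw [map_mul, map_inv, h5, h3, h4, inv_one, mul_one]

/-- Projective representations lift to Schur covers. -/
theorem proj_lift (hA : HasSchurMultiplier Q A) {Γ : Type w} [Group Γ] {σ : Γ →* Q}
    (hσ : IsStemExtension σ) (hk : Nat.card A ≤ Nat.card σ.ker) (n : ℕ)
    (γ : Q →* (GL (Fin n) ℂ ⧸ center (GL (Fin n) ℂ))) :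
    ∃ ρ : Γ →* GL (Fin n) ℂ, (QuotientGroup.mk' (center (GL (Fin n) ℂ))).comp ρ = γ.comp σ := by
  apply exists_lift_of_divisible hA hσ hk γ _ (QuotientGroup.mk'_surjective _)
    (QuotientGroup.ker_mk' _).le
  rw [QuotientGroup.ker_mk']
  exact fun m hm d => center_GL_divisible n m hm d

/-- A stem extension to which all projective representations lift is a Schur cover. -/
theorem card_le_of_proj_lift (hA : HasSchurMultiplier Q A) {Γ : Type w} [Group Γ] {σ : Γ →* Q}
    (hσ : IsStemExtension σ)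
    (hlift : ∀ (n : ℕ) (γ : Q →* (GL (Fin n) ℂ ⧸ center (GL (Fin n) ℂ))),
      ∃ ρ : Γ →* GL (Fin n) ℂ, (QuotientGroup.mk' (center (GL (Fin n) ℂ))).comp ρ = γ.comp σ) :
    Nat.card A ≤ Nat.card σ.ker := by
  obtain ⟨Γ₀, _, _, σ₀, h₀, ⟨e⟩, β, hβ, hc⟩ := exists_cover_onto hA hσ
  have hcomm : IsMulCommutative σ₀.ker :=
    ⟨⟨fun a b => Subtype.ext ((mem_center_iff.1 (h₀.2.1 b.2) a))⟩⟩
  have hinj : Function.Injective β := by
    rw [injective_iff_map_eq_one]
    intro x hx
    have hx0 : x ∈ σ₀.ker := by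
      rw [← hc]; simp [MonoidHom.mem_ker, hx]
    by_contra hne
    have hne' : (⟨x, hx0⟩ : σ₀.ker) ≠ 1 := fun h => hne (congrArg Subtype.val h)
    obtain ⟨lam, hlam⟩ := CommGroup.exists_apply_ne_one_of_hasEnoughRootsOfUnity σ₀.ker ℂ hne'
    obtain ⟨n, ρ₀, hn, -, h2⟩ := exists_GL_over σ₀.ker h₀.2.1 lam
    have hle : σ₀.ker ≤ ((QuotientGroup.mk' (center (GL (Fin n) ℂ))).comp ρ₀).ker := by
      intro k hk
      rw [MonoidHom.mem_ker, MonoidHom.comp_apply, QuotientGroup.mk'_apply,
        QuotientGroup.eq_one_iff, h2 ⟨k, hk⟩, Matrix.GeneralLinearGroup.center_eq_range_scalar]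
      exact ⟨_, rfl⟩
    let γ := σ₀.liftOfSurjective h₀.1 ⟨_, hle⟩
    have hγ : γ.comp σ₀ = (QuotientGroup.mk' (center (GL (Fin n) ℂ))).comp ρ₀ :=
      MonoidHom.liftOfRightInverse_comp _ _ _ _
    obtain ⟨ρ, hρ⟩ := hlift n γ
    have h3 := eq_on_commutator_of_lift (QuotientGroup.ker_mk' (center (GL (Fin n) ℂ))).le
      (ρ.comp β) ρ₀ (by rw [← MonoidHom.comp_assoc, hρ, MonoidHom.comp_assoc, hc, hγ])
      (h₀.2.2 hx0)
    rw [MonoidHom.comp_apply, hx, map_one, h2 ⟨x, hx0⟩, eq_comm,
      map_eq_one_iff _ (scalar_GL_injective hn)] at h3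
    exact hlam h3
  let e' : Γ₀ ≃* Γ := MulEquiv.ofBijective β ⟨hinj, hβ⟩
  have h3 : σ.comp e'.toMonoidHom = σ₀ := hc
  let e'' : σ₀.ker ≃* σ.ker :=
    (MulEquiv.subgroupCongr (by rw [h3])).trans (kerEquivComp σ e')
  exact (Nat.card_congr (e.symm.trans e'').toEquiv).le

end proj

end CL.Schur
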