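/-
`3`-elements acting fixed-point-freely on `2`-groups of rank at most two (helper1).
-/
import Cfsg.Agent.Fgs.MinAct
import Cfsg.Agent.Fgs.QuadCount
import Cfsg.Agent.Blk.CycGrp
import Cfsg.Agent.Loc.ElemAb
import Cfsg.Agent.Grp.Primitive
import Cfsg.Agent.Grp.Frob

set_option autoImplicit false

open scoped Pointwise commutatorElement
open Cfsg CL.Odd CL.Grp CL.Loc

namespace CL.Fgs

variable {G : Type*} [Group G] [Finite G]

/-- a `3`-group acting on a `2`-group of order at most four has all or no fixed points. -/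
theorem card_eq_four_of_fpf {W D : Subgroup G} (h4 : Nat.card W ≤ 4)
    (hne : W ≠ ⊥) (hD : IsPGroup 3 D) (hn : D ≤ N[W]) (hf : W ⊓ C[D] = ⊥) : Nat.card W = 4 := by
  have h1 := card_modEq_card_inf_centralizer hD hn
  rw [hf, Subgroup.card_bot] at h1
  have h2 : Nat.card W ≠ 1 := fun h => hne (Subgroup.eq_bot_of_card_eq _ h)
  have h3 : 0 < Nat.card W := Nat.card_pos
  unfold Nat.ModEq at h1
  omega

theorem inf_cent_eq_bot_of_card_four {W D : Subgroup G} (h4 : Nat.card W = 4)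
    (hD : IsPGroup 3 D) (hn : D ≤ N[W]) (hf : ¬ D ≤ C[W]) : W ⊓ C[D] = ⊥ := by
  have h1 := card_modEq_card_inf_centralizer hD hn
  have h2 : Nat.card ↥(W ⊓ C[D]) ≤ 4 := h4 ▸ Subgroup.card_le_of_le inf_le_left
  have h3 : Nat.card ↥(W ⊓ C[D]) ≠ 4 := fun h => hf (cent_symm (inf_eq_left.1
    (Subgroup.eq_of_le_of_card_ge inf_le_left (by rw [h, h4]))))
  have h5 : 0 < Nat.card ↥(W ⊓ C[D]) := Nat.card_pos
  rw [h4] at h1
  unfold Nat.ModEq at h1
  exact Subgroup.eq_bot_of_card_eq _ (by omega)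

omit [Finite G] in
theorem mem_of_rank_two {P Z : Subgroup G}
    (hr : ∀ E : Subgroup G, E ≤ P → IsElementaryAbelian 2 E → Nat.card E ≤ 4) [Finite P]
    (hZ : IsElementaryAbelian 2 Z) (hZP : Z ≤ P) (h4 : Nat.card Z = 4) {x : G} (hx : x ∈ P)
    (hx2 : x ^ 2 = 1) (hxZ : x ∈ C[Z]) : x ∈ Z := by
  have h0 : Subgroup.zpowers x ⊔ Z ≤ P := sup_le (Subgroup.zpowers_le.2 hx) hZP
  have h1 := hr (Subgroup.zpowers x ⊔ Z) h0
    (ea_sup (ea_zpowers hx2) hZ (Subgroup.zpowers_le.2 hxZ))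
  have : Finite ↥(Subgroup.zpowers x ⊔ Z) :=
    Finite.of_injective _ (Subgroup.inclusion_injective h0)
  rw [Subgroup.eq_of_le_of_card_ge (le_sup_right : Z ≤ Subgroup.zpowers x ⊔ Z) (by rwa [h4])]
  exact Subgroup.mem_sup_left (Subgroup.mem_zpowers x)

/-- A special `2`-group of rank two whose centre has order four has order at most `64`. -/
theorem card_le_of_rank_two {Q : Subgroup G}
    (hr : ∀ E : Subgroup G, E ≤ Q → IsElementaryAbelian 2 E → Nat.card E ≤ 4)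
    (hZ : IsElementaryAbelian 2 Z[Q]) (h4 : Nat.card ↥Z[Q] = 4) (hsq : ∀ x ∈ Q, x ^ 2 ∈ Z[Q])
    (hd : ⁅Q, Q⁆ ≤ Z[Q]) : Nat.card Q ∣ 64 := by
  have hcen : ∀ x : Q, x ∈ Subgroup.center Q ↔ (x : G) ∈ Z[Q] := fun x => by
    rw [← center_map_subtype]
    exact ⟨fun h => ⟨x, h, rfl⟩, fun ⟨y, hy, e⟩ => Subtype.ext e ▸ hy⟩
  have hc : Nat.card (Subgroup.center Q) = 4 := by
    rw [← h4, ← center_map_subtype, card_map_subtype]
  have h1 := card_mul_card_dvd_sq (H := Q) (Z := Subgroup.center Q) (B := Subgroup.center Q) le_rfl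
    le_rfl (fun z hz => Subtype.ext (hZ.2 z ((hcen z).1 hz))) (fun x => (hcen _).2 (hsq x x.2))
    (fun x y => (hcen _).2 (hd (Subgroup.commutator_mem_commutator x.2 y.2)))
  have h2 : Nat.card {x : Q // x ^ 2 = 1} = 4 := by
    rw [← hc]
    refine Nat.card_congr (Equiv.subtypeEquivRight fun x => ⟨fun h => (hcen x).2 ?_,
      fun h => Subtype.ext (hZ.2 x ((hcen x).1 h))⟩)
    exact mem_of_rank_two hr hZ inf_le_left h4 x.2 (congrArg Subtype.val h)
      (cent_symm (inf_le_right : Z[Q] ≤ C[Q]) x.2)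
  rw [h2, hc] at h1
  exact Nat.dvd_of_mul_dvd_mul_right (by norm_num : 0 < 4) h1

theorem orderOf_eq_three_of_fpf {d : G} {n : ℕ} (hn : 1 ≤ n) (hd : orderOf d = 3 ^ n)
    {P : Subgroup G} (hP : IsPGroup 2 P) (hdP : d ∈ N[P]) (hfaith : Subgroup.zpowers d ⊓ C[P] = ⊥)
    (hfpf : P ⊓ C1[d] = ⊥)
    (hr : ∀ E : Subgroup G, E ≤ P → IsElementaryAbelian 2 E → Nat.card E ≤ 4) : orderOf d = 3 := by
  by_contra hne
  obtain ⟨m, rfl⟩ : ∃ m, n = m + 2 := ⟨n - 2, by
    have : n ≠ 1 := fun h => hne (by rw [hd, h, pow_one])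
    omega⟩
  set B := Subgroup.zpowers d with hB
  have hBc : Nat.card B = 3 ^ (m + 2) := by rw [Nat.card_zpowers, hd]
  have hBp : IsPGroup 3 B := IsPGroup.of_card hBc
  obtain ⟨A, hAB, hA⟩ : ∃ A : Subgroup G, A ≤ B ∧ Nat.card A = 3 :=
    ⟨Subgroup.zpowers (d ^ 3 ^ (m + 1)), Subgroup.zpowers_le.2 (Subgroup.npow_mem_zpowers d _), by
      rw [Nat.card_zpowers, orderOf_pow_of_dvd (by positivity) (hd ▸ pow_dvd_pow 3 (by omega)), hd,
        pow_succ, Nat.mul_div_cancel_left _ (by positivity)]⟩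
  have hBab : B ≤ C[B] := abelian_iff.1 inferInstance
  have hAP : ¬ A ≤ C[P] := fun h => by
    have h1 : A = ⊥ := le_bot_iff.1 (hfaith ▸ le_inf hAB h)
    rw [h1, Subgroup.card_bot] at hA
    omega
  obtain ⟨Q, ⟨hQP, hBQ, hAQ⟩, hmin⟩ := (Set.toFinite {Q : Subgroup G | Q ≤ P ∧ B ≤ N[Q] ∧
    ¬ A ≤ C[Q]}).exists_minimal ⟨P, le_rfl, Subgroup.zpowers_le.2 hdP, hAP⟩
  have hQ : IsPGroup 2 Q := hP.to_le hQP
  obtain ⟨k, hk⟩ := IsPGroup.iff_card.1 hQ
  obtain ⟨-, h2, h3, h4, h5, -⟩ := min_coprime_action Nat.prime_two hQ hBQ hAB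
    ((hBab.trans (cent_anti hAB)).trans (cent_le_norm _))
    (by rw [hA, hk]; exact Nat.Coprime.pow_right _ (by norm_num)) hAQ (fun U hU hBU => by
      by_contra h
      exact hU.not_ge (hmin ⟨hU.le.trans hQP, hBU, fun h' => h (cent_symm h')⟩ hU.le))
  have hrQ : ∀ E : Subgroup G, E ≤ Q → IsElementaryAbelian 2 E → Nat.card E ≤ 4 :=
    fun E hE => hr E (hE.trans hQP)
  have hQ1 : Q ≠ ⊥ := fun h => hAQ (by rw [h, cent_bot]; exact le_top)
  have hlt : ⁅Q, Q⁆ < Q := der_lt_of_solvable (sol_of_isPGroup Nat.prime_two hQ) hQ1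
  have hdvd : Nat.card B ∣ Nat.card ↥((Q : Set G) \ (⁅Q, Q⁆ : Subgroup G)) :=
    card_dvd_card_of_conj_free B _
      (fun x hx y hy => ⟨conj_mem_of_norm (hBQ hx) hy.1, fun hz =>
        hy.2 ((conj_mem_iff_of_norm (le_norm_comm hBQ hBQ hx)).1 hz)⟩)
      (fun x hx y hy e => by
        by_contra h1
        have h6 : A ≤ Subgroup.zpowers x := by
          refine CL.Blk.cy_le_of_card_dvd inferInstance hAB (Subgroup.zpowers_le.2 hx) ?_
          rw [hA]
          exact (hBp.to_le (Subgroup.zpowers_le.2 hx)).card_eq_or_dvd.resolve_left fun h =>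
            h1 (Subgroup.zpowers_eq_bot.1 (Subgroup.eq_bot_of_card_eq _ h))
        refine hy.2 ?_
        rw [← h2]
        refine ⟨hy.1, cent_anti h6 ?_⟩
        rw [centralizer_zpowers]
        exact mem_c1_comm.1 (mem_c1_iff_conj.2 e))
  rw [Nat.card_coe_set_eq, Set.ncard_sdiff (SetLike.coe_subset_coe.2 hlt.le), ← Nat.card_coe_set_eq,
    ← Nat.card_coe_set_eq, SetLike.coe_sort_coe, SetLike.coe_sort_coe, hBc] at hdvd
  have h9 := (pow_dvd_pow 3 (by omega : 2 ≤ m + 2)).trans hdvd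
  have hlt' := CL.Grp.card_lt_card_of_lt hlt
  by_cases hab : IsMulCommutative Q
  · have h6 : ⁅Q, Q⁆ = ⊥ := comm_eq_bot_iff.2 (abelian_iff.1 hab)
    have h7 := hrQ Q le_rfl ((trivg_Phi Nat.prime_two hQ).1 (h3.trans h6))
    rw [h6, Subgroup.card_bot] at h9 hlt'
    omega
  · have hZ := h5 hab
    have hsq : ∀ x ∈ Q, x ^ 2 ∈ Z[Q] := fun x hx => by
      rw [hZ, ← h3]; exact pow_mem_Phi Nat.prime_two hQ hx
    have hZe : IsElementaryAbelian 2 Z[Q] := by
      have h6 : ⁅Q, Q⁆ ≤ omegaOne 2 Z[Q] := by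
        refine Subgroup.commutator_le.2 fun x hx y hy => ?_
        have h7 : ⁅x, y⁆ ∈ Z[Q] := hZ ▸ Subgroup.commutator_mem_commutator hx hy
        refine le_omegaOne_of_ea (ea_zpowers ?_) (Subgroup.zpowers_le.2 h7) (Subgroup.mem_zpowers _)
        have h8 := mem_cent.1 (hsq x hx).2 y hy
        have h9 := mem_cent.1 h7.2 x hx
        have h11 : x * ⁅x, y⁆ * x⁻¹ * ⁅x, y⁆ = 1 := by
          rw [commutatorElement_def]
          calc _ = x ^ 2 * y * (x ^ 2)⁻¹ * y⁻¹ := by rw [sq]; group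
            _ = 1 := by rw [← h8]; group
        rw [h9, mul_inv_cancel_right] at h11
        rw [sq, h11]
      rw [hZ]
      exact ea_mono (ea_omegaOne (inf_le_right.trans (cent_anti inf_le_left))) h6
    have hZ1 : Z[Q] ≠ ⊥ := fun h => hab (abelian_iff.2 (comm_eq_bot_iff.1 (hZ ▸ h)))
    have hZ4 := card_eq_four_of_fpf (hrQ _ inf_le_left hZe) hZ1 hBp
      (hBQ.trans (norm_le_norm_center Q)) (by
        rw [← le_bot_iff, ← hfpf, hB, centralizer_zpowers]
        exact inf_le_inf_right _ (inf_le_left.trans hQP))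
    have h64 := card_le_of_rank_two hrQ hZe hZ4 hsq hZ.ge
    rw [← hZ, hZ4] at h9 hlt'
    have h10 : Nat.card Q ∈ Nat.divisors 64 := Nat.mem_divisors.2 ⟨h64, by norm_num⟩
    generalize Nat.card Q = c at h9 hlt' h10
    have h11 : ∀ c ∈ Nat.divisors 64, 3 ^ 2 ∣ c - 4 → ¬ 4 < c := by decide
    exact h11 c h10 h9 hlt'

theorem exists_eight_of_fpf (hchar : C[pCore 2 G] ≤ pCore 2 G) {g : G} (hg : orderOf g = 6)
    {d : G} (hd : IsPGroup 3 (Subgroup.zpowers d)) {W : Subgroup G} (hW : IsElementaryAbelian 2 W)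
    (hW1 : W ≠ ⊥) (hdW : d ∈ N[W]) (hfpf : W ⊓ C1[d] = ⊥) :
    ∃ E : Subgroup G, IsElementaryAbelian 2 E ∧ 4 < Nat.card E := by
  by_contra hcon
  push Not at hcon
  have hr : ∀ P E : Subgroup G, E ≤ P → IsElementaryAbelian 2 E → Nat.card E ≤ 4 :=
    fun _ E _ => hcon E
  have h3 : Fact (Nat.Prime 3) := ⟨Nat.prime_three⟩
  set Q := pCore 2 G with hQdef
  have hQ : IsPGroup 2 Q := pCore_isPGroup 2 G
  have hnQ : ∀ H : Subgroup G, H ≤ N[Q] := fun H => Subgroup.le_normalizer_of_normal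
  have hdW' : Subgroup.zpowers d ≤ N[W] := Subgroup.zpowers_le.2 hdW
  have four : ∀ U D : Subgroup G, U ≤ W → U ≠ ⊥ → IsPGroup 3 D → D ≤ N[U] → W ⊓ C[D] = ⊥ →
      U = W := fun U D hU h1 hD hn hf => Subgroup.eq_of_le_of_card_ge hU (by
    rw [card_eq_four_of_fpf (hcon U (ea_mono hW hU)) h1 hD hn
      (le_bot_iff.1 (hf ▸ inf_le_inf_right _ hU))]
    exact hcon W hW)
  have hW4 : Nat.card W = 4 := card_eq_four_of_fpf (hcon W hW) hW1 hd hdW'
    (by rwa [centralizer_zpowers])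
  have inW : ∀ t : G, t ^ 2 = 1 → t ∈ C[W] → t ∈ W := fun t h1 h2 =>
    mem_of_rank_two (hr ⊤) hW le_top hW4 (Subgroup.mem_top t) h1 h2
  -- `W = Ω₁(Z(Q))`
  have hWQ : W ≤ C[Q] := by
    set T := W ⊔ Q
    have hT : IsPGroup 2 T := (ea_isPGroup hW).to_sup_of_normal_right hQ
    have hTn : Subgroup.zpowers d ≤ N[T] := le_norm_sup hdW' (hnQ _)
    have h1 : W ⊓ C[T] ≠ ⊥ := by
      have h2 := inf_centralizer_ne_bot_of_isPGroup hT (le_norm_self T)
        (hT.card_eq_or_dvd.resolve_left fun h =>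
          hW1 (le_bot_iff.1 (Subgroup.eq_bot_of_card_eq _ h ▸ le_sup_left)))
      obtain ⟨t, ht, ht2⟩ := exists_orderOf_eq_of_dvd_card Nat.prime_two
        ((hT.to_le (inf_le_left : Z[T] ≤ T)).card_eq_or_dvd.resolve_left fun h =>
          h2 (Subgroup.eq_bot_of_card_eq _ h))
      have h3 : t ∈ W ⊓ C[T] := ⟨inW t (ht2 ▸ pow_orderOf_eq_one t) (cent_anti le_sup_left ht.2), ht.2⟩
      intro h
      rw [h, Subgroup.mem_bot] at h3
      rw [h3, orderOf_one] at ht2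
      omega
    have h2 := four _ _ inf_le_left h1 hd (le_norm_inf hdW' (le_norm_cent hTn))
      (by rwa [centralizer_zpowers])
    exact (inf_eq_left.1 h2).trans (cent_anti le_sup_right)
  have hWn : W.Normal := ⟨fun w hw y => inW _ (by rw [conj_pow, hW.2 w hw]; simp)
    (cent_symm hWQ (Subgroup.Normal.conj_mem inferInstance w (hchar (hWQ hw)) y))⟩
  have hnW : ∀ H : Subgroup G, H ≤ N[W] := fun H => Subgroup.le_normalizer_of_normal
  -- `3`-elements outside `C(W)` act fixed-point-freely on `Q` and have order three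
  have fpf : ∀ a : G, IsPGroup 3 (Subgroup.zpowers a) → a ∉ C[W] → Q ⊓ C1[a] = ⊥ := by
    intro a ha haW
    have h1 := inf_cent_eq_bot_of_card_four hW4 ha (hnW _) fun h => haW (zpowers_le_cent.1 h)
    rw [centralizer_zpowers] at h1
    by_contra hne
    obtain ⟨t, ht, ht2⟩ := exists_orderOf_eq_of_dvd_card Nat.prime_two
      ((hQ.to_le (inf_le_left : Q ⊓ C1[a] ≤ Q)).card_eq_or_dvd.resolve_left fun h =>
        hne (Subgroup.eq_bot_of_card_eq _ h))
    have h3 : t ∈ W ⊓ C1[a] := ⟨inW t (ht2 ▸ pow_orderOf_eq_one t) (cent_symm hWQ ht.1), ht.2⟩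
    rw [h1, Subgroup.mem_bot] at h3
    rw [h3, orderOf_one] at ht2
    omega
  have faith : ∀ D : Subgroup G, IsPGroup 3 D → D ⊓ C[Q] = ⊥ := fun D hD =>
    le_bot_iff.1 ((inf_le_inf_left D hchar).trans
      (IsPGroup.disjoint_of_ne 3 2 (by norm_num) _ _ hD hQ).le_bot)
  have ord : ∀ a : G, IsPGroup 3 (Subgroup.zpowers a) → a ∉ C[W] → orderOf a = 3 := by
    intro a ha haW
    obtain ⟨n, hn⟩ := IsPGroup.iff_card.1 ha
    rw [Nat.card_zpowers] at hn
    refine orderOf_eq_three_of_fpf (n := n) ?_ hn hQ (hnQ ⊤ trivial) (faith _ ha) (fpf a ha haW)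
      (hr Q)
    by_contra h0
    rw [show n = 0 by omega, pow_zero, orderOf_eq_one_iff] at hn
    exact haW (hn ▸ one_mem _)
  -- an element of order three centralizes `W`
  have hx : orderOf (g ^ 2) = 3 := by rw [orderOf_pow_of_dvd (by norm_num) (by rw [hg]; norm_num), hg]
  have ht : orderOf (g ^ 3) = 2 := by rw [orderOf_pow_of_dvd (by norm_num) (by rw [hg]; norm_num), hg]
  have hxp : IsPGroup 3 (Subgroup.zpowers (g ^ 2)) :=
    IsPGroup.of_card (n := 1) (by rw [Nat.card_zpowers, hx, pow_one])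
  have htx : g ^ 3 ∈ C1[g ^ 2] := mem_c1.2 ((Commute.refl g).pow_pow _ _).eq
  have hxW : g ^ 2 ∈ C[W] := by
    by_contra hxW
    have h1 := inf_cent_eq_bot_of_card_four hW4 hxp (hnW _) fun h => hxW (zpowers_le_cent.1 h)
    have h2 : W ⊓ C[Subgroup.zpowers (g ^ 3)] ≠ ⊥ := inf_centralizer_ne_bot_of_isPGroup
      (IsPGroup.of_card (p := 2) (n := 1) (by rw [Nat.card_zpowers, ht, pow_one])) (hnW _)
      (by rw [hW4]; norm_num)
    have h3 := four _ _ inf_le_left h2 hxp (le_norm_inf (hnW _) (le_norm_cent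
      (le_norm_zpowers_of_le_c1 (Subgroup.zpowers_le.2 (mem_c1_comm.1 htx))))) h1
    have h4 : g ^ 3 ∈ W ⊓ C[Subgroup.zpowers (g ^ 2)] :=
      ⟨inW _ (ht ▸ pow_orderOf_eq_one _) (zpowers_le_cent.1 (cent_symm (inf_eq_left.1 h3))),
        by rwa [centralizer_zpowers]⟩
    rw [h1, Subgroup.mem_bot] at h4
    rw [h4, orderOf_one] at ht
    omega
  have hdW2 : d ∉ C[W] := fun h => hW1 (by
    rw [← hfpf, ← centralizer_zpowers]
    exact (inf_eq_left.2 (cent_symm (zpowers_le_cent.2 h))).symm)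
  obtain ⟨D, hD, hdD⟩ := exists_isSylowIn_ge hd le_top
  have hD0 := hD.inf_of_normalized (N := C[W]) le_top (le_norm_cent (hnW _))
  have h3D : 3 ∣ Nat.card ↥(D ⊓ C[W]) := by
    have := hD0.card_dvd hxp (Subgroup.zpowers_le.2 hxW)
    rwa [Nat.card_zpowers, hx] at this
  have h4 := inf_centralizer_ne_bot_of_isPGroup hd
    (le_norm_inf (hdD.trans (le_norm_self D)) (le_norm_cent hdW')) h3D
  obtain ⟨y, hy, hy3⟩ := exists_orderOf_eq_of_dvd_card Nat.prime_three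
    ((hD.isPGroup.to_le (inf_le_left.trans inf_le_left :
      D ⊓ C[W] ⊓ C[Subgroup.zpowers d] ≤ D)).card_eq_or_dvd.resolve_left fun h =>
        h4 (Subgroup.eq_bot_of_card_eq _ h))
  set Y := Subgroup.zpowers y
  have hYc : Nat.card Y = 3 := by rw [Nat.card_zpowers, hy3]
  have hYW : Y ≤ C[W] := Subgroup.zpowers_le.2 hy.1.2
  have hYd : Y ≤ C[Subgroup.zpowers d] := Subgroup.zpowers_le.2 hy.2
  set A := Y ⊔ Subgroup.zpowers d
  have hAD : A ≤ D := sup_le (Subgroup.zpowers_le.2 hy.1.1) hdD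
  have hAp : ∀ a ∈ A, IsPGroup 3 (Subgroup.zpowers a) := fun a ha =>
    hD.isPGroup.to_le (Subgroup.zpowers_le.2 (hAD ha))
  have prime3 : ∀ (U : Subgroup G) (a : G), Nat.card U = 3 → a ∈ U → a ≠ 1 →
      Subgroup.zpowers a = U := fun U a hU ha h1 => by
    have h2 := Subgroup.zpowers_le.2 ha
    refine Subgroup.eq_of_le_of_card_ge h2 (le_of_eq ?_)
    rw [hU]
    exact (((Nat.dvd_prime Nat.prime_three).1 (hU ▸ Subgroup.card_dvd_of_le h2)).resolve_left
      fun h => h1 (Subgroup.zpowers_eq_bot.1 (Subgroup.eq_bot_of_card_eq _ h))).symm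
  have hAW : C[W] ⊓ A = Y := by
    rw [inf_sup_dedekind (Or.inr (hYd.trans (cent_le_norm _))) hYW, sup_eq_left]
    intro a ha
    by_contra h1
    refine hdW2 (zpowers_le_cent.1 ?_)
    rw [← prime3 _ a (by rw [Nat.card_zpowers, ord d hd hdW2]) ha.2 fun h => h1 (h ▸ one_mem _)]
    exact Subgroup.zpowers_le.2 ha.1
  have hy1 : y ≠ 1 := fun h => by rw [h, orderOf_one] at hy3; omega
  have hAab : IsMulCommutative A := abelian_iff.2 (sup_le
    (le_cent_sup (abelian_iff.1 (abelian_zpowers y)) hYd)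
    (le_cent_sup (cent_symm hYd) (abelian_iff.1 (abelian_zpowers d))))
  have hAnc : ¬ IsCyclic A := by
    intro h
    obtain ⟨a, ha⟩ := cyclic_iff.1 h
    have haA : a ∈ A := ha ▸ Subgroup.mem_zpowers a
    have hdA : d ∈ A := Subgroup.mem_sup_right (Subgroup.mem_zpowers d)
    have haW : a ∉ C[W] := fun h => hdW2 (Subgroup.zpowers_le.2 h (ha ▸ hdA))
    have h1 := prime3 A y (by rw [← ha, Nat.card_zpowers, ord a (hAp a haA) haW])
      (Subgroup.mem_sup_left (Subgroup.mem_zpowers y)) hy1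
    exact hdW2 (hYW (h1 ▸ hdA : d ∈ Subgroup.zpowers y))
  obtain ⟨k, hk⟩ := IsPGroup.iff_card.1 hQ
  obtain ⟨l, hl⟩ := IsPGroup.iff_card.1 (hD.isPGroup.to_le hAD)
  have h5 : Q ≤ C[Y] := coprime_abelian_gen_cent1 hAab hAnc (hnQ A)
    (by rw [hk, hl]; exact Nat.Coprime.pow _ _ (by norm_num)) fun a ha h1 => by
      by_cases haW : a ∈ C[W]
      · rw [← prime3 Y a hYc (hAW ▸ ⟨haW, ha⟩) h1, centralizer_zpowers]
        exact inf_le_right
      · rw [fpf a (hAp a ha) haW]; exact bot_le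
  have h6 := faith Y (hAp y (Subgroup.mem_sup_left (Subgroup.mem_zpowers y)))
  rw [inf_eq_left.2 (cent_symm h5)] at h6
  rw [h6, Subgroup.card_bot] at hYc
  omega

end CL.Fgs
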