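/-
A `p`-subgroup acting nontrivially on a normal `p'`-section: generation of a minimal subgroup by two
conjugates (helper1).
-/
import Cfsg.Agent.Loc.SigGen
import Cfsg.Agent.Even.Amb
import Cfsg.Agent.Grp.PNilp
import Cfsg.Agent.Grp.Subnormal

set_option autoImplicit false
open Cfsg Subgroup CL.Grp
open scoped commutatorElement Pointwise

namespace CL.Fgs

variable {G H : Type*} [Group G] [Group H] {p : ℕ}

theorem eq_one_of_pow_pow_eq_one [hp : Fact p.Prime] {Q : Subgroup H} (hQ : ¬ p ∣ Nat.card Q)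
    {c : H} (hc : c ∈ Q) {k : ℕ} (h : c ^ p ^ k = 1) : c = 1 := by
  have h1 : orderOf c ∣ p ^ k := orderOf_dvd_of_pow_eq_one h
  have h2 : orderOf c ∣ Nat.card Q := Subgroup.orderOf_dvd_natCard Q hc
  have h3 : (p ^ k).Coprime (Nat.card Q) :=
    Nat.Coprime.pow_left k ((Nat.Prime.coprime_iff_not_dvd hp.out).2 hQ)
  exact orderOf_eq_one_iff.1 (Nat.eq_one_of_dvd_coprimes h3 h1 h2)

/-- If `x ∈ Q` does not centralize the elementary abelian group `E` normalizing the `p'`-group `Q`,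
then neither does some commutator `[x, e]`. -/
theorem exists_commutator_notMem_centralizer [Fact p.Prime] {Q E : Subgroup H}
    (hQ : ¬ p ∣ Nat.card Q) (hE : ∀ e ∈ E, e ^ p = 1) (hn : E ≤ normalizer (Q : Set H))
    {x : H} (hx : x ∈ Q) (hxE : x ∉ centralizer (E : Set H)) :
    ∃ e ∈ E, ⁅x, e⁆ ∉ centralizer (E : Set H) := by
  by_contra hcon
  push Not at hcon
  refine hxE fun e he => ?_
  have h1 : ⁅x, e⁆ ∈ Q := by
    rw [commutatorElement_def, mul_assoc, mul_assoc, ← mul_assoc e]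
    exact Q.mul_mem hx ((mem_normalizer_iff.1 (hn he) _).1 (Q.inv_mem hx))
  have h2 : Commute ⁅x, e⁆ e := (hcon e he e he).symm
  have h3 : ⁅x, e⁆ * e = x * e * x⁻¹ := by rw [commutatorElement_def]; group
  have h4 : ⁅x, e⁆ ^ p ^ 1 = 1 := by
    have h5 := h2.mul_pow p
    rw [h3, conj_pow, hE e he] at h5
    simpa using h5.symm
  exact (commutatorElement_eq_one_iff_mul_comm.1 (eq_one_of_pow_pow_eq_one hQ h1 h4)).symm

theorem exists_two_conj_aux [Finite G] [hp : Fact p.Prime] (f : G →* H) {Q B : Subgroup H}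
    (hQ : ¬ p ∣ Nat.card Q) {A : Subgroup G} (hE : ∀ e ∈ A.map f, e ^ p = 1)
    (hn : A.map f ≤ normalizer (Q : Set H)) (hAB : A.map f ≤ centralizer (B : Set H))
    (hex : ∃ x : G, f x ∈ Q ∧ f x ∈ centralizer (B : Set H) ∧
      f x ∉ centralizer ((A.map f : Subgroup H) : Set H)) :
    ∃ x : G, f x ∈ Q ∧ f x ∈ centralizer (B : Set H) ∧
      f x ∉ centralizer ((A.map f : Subgroup H) : Set H) ∧ (orderOf x).Coprime p ∧
      x ∈ A ⊔ MulAut.conj x • A := by
  obtain ⟨x, ⟨hxQ, hxB, hxA⟩, hmin⟩ := (Set.toFinite {x : G | f x ∈ Q ∧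
    f x ∈ centralizer (B : Set H) ∧ f x ∉ centralizer ((A.map f : Subgroup H) : Set H)
      }).exists_minimalFor (fun x => A ⊔ MulAut.conj x • A) _ hex
  obtain ⟨_, ⟨a, ha, rfl⟩, hxa⟩ := exists_commutator_notMem_centralizer hQ hE hn hxQ hxA
  rw [← map_commutatorElement] at hxa
  have hyL : ⁅x, a⁆ ∈ A ⊔ MulAut.conj x • A := by
    rw [commutatorElement_def]
    exact mul_mem (mem_sup_right (conj_mem_conj_smul x ha)) (mem_sup_left (A.inv_mem ha))
  have hyQ : f ⁅x, a⁆ ∈ Q := by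
    rw [map_commutatorElement, commutatorElement_def, mul_assoc, mul_assoc, ← mul_assoc (f a)]
    exact Q.mul_mem hxQ ((mem_normalizer_iff.1 (hn ⟨a, ha, rfl⟩) _).1 (Q.inv_mem hxQ))
  have hyB : f ⁅x, a⁆ ∈ centralizer (B : Set H) := by
    have h1 := hAB ⟨a, ha, rfl⟩
    rw [map_commutatorElement, commutatorElement_def]
    exact mul_mem (mul_mem (mul_mem hxB h1) (inv_mem hxB)) (inv_mem h1)
  obtain ⟨u, hu, y, hy, ⟨k, hk⟩, hyp, huy, -⟩ := exists_pPart_mul_pPrimePart hp.out ⁅x, a⁆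
  have hfu : f u = 1 := by
    refine eq_one_of_pow_pow_eq_one hQ (k := k) ?_ (by rw [← map_pow, ← hk, pow_orderOf_eq_one, map_one])
    exact (zpowers_le (H := Q.comap f)).2 hyQ hu
  have hfy : f y = f ⁅x, a⁆ := by rw [huy, map_mul, hfu, one_mul]
  have hyL' : y ∈ A ⊔ MulAut.conj x • A := zpowers_le.2 hyL hy
  refine ⟨y, hfy ▸ hyQ, hfy ▸ hyB, hfy ▸ hxa, hyp, ?_⟩
  refine hmin (j := y) ⟨hfy ▸ hyQ, hfy ▸ hyB, hfy ▸ hxa⟩ ?_ hyL'
  exact sup_le le_sup_left (conj_smul_le_of_mem le_sup_left hyL')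

theorem exists_two_conj [Finite G] [Finite H] [hp : Fact p.Prime] (f : G →* H)
    (hf : Function.Surjective f) (hker : IsPGroup p f.ker) (Q : Subgroup H) [Q.Normal]
    (hQ : ¬ p ∣ Nat.card Q) {A : Subgroup G} (hA : IsPGroup p A)
    (hE : IsElementaryAbelian p (A.map f))
    (hnc : ¬ Q ≤ centralizer ((A.map f : Subgroup H) : Set H)) :
    ∃ x ∈ Q.comap f, x ∈ pResidualOf p (A ⊔ MulAut.conj x • A) ∧
      pResidualOf p (A ⊔ MulAut.conj x • A) ≤ Q.comap f ∧
      ⁅pResidualOf p (A ⊔ MulAut.conj x • A), A⁆ = pResidualOf p (A ⊔ MulAut.conj x • A) ∧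
      (A ⊓ pCoreOf p (A ⊔ MulAut.conj x • A)).relIndex A = p ∧
      ⁅A ⊓ pCoreOf p (A ⊔ MulAut.conj x • A), A ⊔ MulAut.conj x • A⁆ ≤ f.ker := by
  have hn : A.map f ≤ normalizer (Q : Set H) := le_top.trans (normalizer_eq_top Q).ge
  have hne : A.map f ≠ ⊥ := fun h => hnc (by rw [h, le_centralizer_iff]; exact bot_le)
  have hAc : A.map f ≤ centralizer ((A.map f : Subgroup H) : Set H) :=
    le_centralizer_iff_isMulCommutative.2 hE.1
  obtain ⟨B, hBA, hBi, hB⟩ : ∃ B : Subgroup H, B ≤ A.map f ∧ B.relIndex (A.map f) = p ∧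
      ¬ Q ⊓ centralizer (B : Set H) ≤ centralizer ((A.map f : Subgroup H) : Set H) := by
    by_contra hcon
    push Not at hcon
    exact hnc (CL.Loc.le_of_forall_hyperplane hE hne hn hQ hcon)
  have hAB : A.map f ≤ centralizer (B : Set H) := hAc.trans (centralizer_le hBA)
  obtain ⟨x, hxQ, hxB, hxA, hxp, hxL⟩ := exists_two_conj_aux f hQ hE.2 hn hAB (by
    obtain ⟨z, hz, hz'⟩ := SetLike.not_le_iff_exists.1 hB
    obtain ⟨x, rfl⟩ := hf z
    exact ⟨x, hz.1, hz.2, hz'⟩)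
  set L := A ⊔ MulAut.conj x • A with hL
  set R := pResidualOf p L with hR
  have hxR : x ∈ R := by
    rw [hR, CL.Even.res_eq_closure]
    exact subset_closure ⟨hxL, hxp⟩
  have hRL : R ≤ L := CL.Even.res_le L
  have hAL : A ≤ L := le_sup_left
  have hLR : L ≤ normalizer (R : Set G) := le_normalizer_map_subtype _
  -- `L ≤ A ⊔ N` as soon as `[x, A] ≤ N`
  have hgen : ∀ N : Subgroup G, (∀ a ∈ A, ⁅x, a⁆ ∈ N) → L ≤ A ⊔ N := by
    intro N hN
    refine sup_le le_sup_left ((conj_smul_le_iff _ _ _).2 fun a ha => ?_)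
    have h1 : x * a * x⁻¹ = ⁅x, a⁆ * a := by rw [commutatorElement_def]; group
    rw [h1]
    exact mul_mem (mem_sup_right (hN a ha)) (mem_sup_left ha)
  have hres : ∀ N : Subgroup G, (∀ a ∈ A, ⁅x, a⁆ ∈ N) → A ≤ normalizer (N : Set G) → R ≤ N :=
    fun N hN hAN => (CL.Even.res_mono (hgen N hN)).trans (CL.Even.res_sup_le_of_isPGroup hA hAN)
  have hxaQ : ∀ a : G, ⁅x, a⁆ ∈ Q.comap f := fun a => by
    rw [commutatorElement_def, mul_assoc, mul_assoc, ← mul_assoc a]
    have h1 : x ∈ Q.comap f := hxQ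
    exact mul_mem h1 (Subgroup.Normal.conj_mem inferInstance _ (inv_mem h1) a)
  have hRQ : R ≤ Q.comap f := hres _ (fun a _ => hxaQ a) (le_top.trans (normalizer_eq_top _).ge)
  have hRA : ⁅R, A⁆ = R := le_antisymm (le_normalizer_iff_commutator_le_left.1 (hAL.trans hLR))
    (hres _ (fun a ha => commutator_mem_commutator hxR ha) (normalizer_commutator_ge_right ..))
  -- the hyperplane
  set B₀ := A ⊓ B.comap f with hB₀
  have hLB : L ≤ (centralizer (B : Set H)).comap f := by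
    refine sup_le (map_le_iff_le_comap.1 hAB) ((conj_smul_le_iff _ _ _).2 fun a ha => ?_)
    exact mul_mem (mul_mem hxB (map_le_iff_le_comap.1 hAB ha)) (inv_mem hxB)
  have hcomm : ⁅B₀, L⁆ ≤ f.ker := by
    refine commutator_le.2 fun b hb l hl => ?_
    rw [MonoidHom.mem_ker, map_commutatorElement, commutatorElement_eq_one_iff_mul_comm]
    exact hLB hl (f b) hb.2
  have hB₀p : IsPGroup p ↥(B₀ ⊔ f.ker) := (hA.to_inf_left).to_sup_of_normal_right hker
  have hB₀n : L ≤ normalizer ((B₀ ⊔ f.ker : Subgroup G) : Set G) := by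
    rw [le_normalizer_iff_conj_smul_le]
    intro l hl
    rw [smul_sup]
    refine sup_le ((conj_smul_le_iff _ _ _).2 fun b hb => ?_)
      ((conj_smul_eq_of_mem_normalizer (by rw [normalizer_eq_top]; trivial)).le.trans le_sup_right)
    have h1 : l * b * l⁻¹ = ⁅b, l⁆⁻¹ * b := by rw [commutatorElement_def]; group
    rw [h1]
    exact mul_mem (inv_mem (mem_sup_right (hcomm (commutator_mem_commutator hb hl))))
      (mem_sup_left hb)
  have hB₀O : B₀ ≤ pCoreOf p L := by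
    refine le_trans (le_inf (inf_le_left.trans hAL) le_sup_left)
      (le_pCoreOf inf_le_left ?_ hB₀p.to_inf_right)
    exact le_trans (le_inf le_normalizer hB₀n) (inf_normalizer_le_normalizer_inf ..)
  have hAO : ¬ A ≤ pCoreOf p L := by
    intro h
    refine hxA ?_
    rintro _ ⟨a, ha, rfl⟩
    have h1 : ⁅x, a⁆ ∈ pCoreOf p L :=
      le_normalizer_iff_commutator_le_right.1 (le_normalizer_pCoreOf p L)
        (commutator_mem_commutator hxL (h ha))
    obtain ⟨k, hk⟩ := pCoreOf_isPGroup p L ⟨_, h1⟩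
    have h2 : f ⁅x, a⁆ = 1 := eq_one_of_pow_pow_eq_one hQ (k := k) (hxaQ a) (by
      rw [← map_pow, show ⁅x, a⁆ ^ p ^ k = 1 from congrArg Subtype.val hk, map_one])
    rw [map_commutatorElement, commutatorElement_eq_one_iff_mul_comm] at h2
    exact h2.symm
  have hi : B₀.relIndex A = p := by
    rw [hB₀, inf_relIndex_left, relIndex_comap, hBi]
  have hle : B₀ ≤ A ⊓ pCoreOf p L := le_inf inf_le_left hB₀O
  have hmul := relIndex_mul_relIndex B₀ (A ⊓ pCoreOf p L) A hle inf_le_left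
  rw [hi] at hmul
  have hi2 : (A ⊓ pCoreOf p L).relIndex A = p := by
    rcases (Nat.dvd_prime hp.out).1 (Dvd.intro_left _ hmul) with h | h
    · exact absurd ((relIndex_eq_one.1 h).trans inf_le_right) hAO
    · exact h
  have hge : A ⊓ pCoreOf p L ≤ B₀ := by
    rw [hi2] at hmul
    exact relIndex_eq_one.1 (Nat.eq_of_mul_eq_mul_right hp.out.pos (by rw [hmul, one_mul]))
  exact ⟨x, hxQ, hxR, hRQ, hRA, hi2, (commutator_mono hge le_rfl).trans hcomm⟩

end CL.Fgs
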